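import Cfsg.Agent.Lib.LargeFischer.TypeTwo.Kernel
import Cfsg.Agent.Lib.LargeFischer.TypeTwo.AutEnd
import Cfsg.Agent.Lib.Cores.GenFitting
import Cfsg.Agent.Lib.Cores.Quasisimple

/-!
Large Fischer type inside a group `X` as a subgroup of index two: an involution of `X` outside it centralising the
quasisimple kernel in the centraliser of `t`, and nothing more of that centraliser.
-/

set_option autoImplicit false
set_option linter.unusedSectionVars false
set_option linter.style.haveILetI false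

namespace CfsgLib.LargeFischer.TypeTwo.Extension

variable {X : Type*} [Group X] [Finite X] {G₀ : Subgroup X} {z : ↥G₀} {Q : Subgroup (Hz z)} [Q.Normal]
  (D : Pair z Q)

/-- An element of `Q` in the big group. -/
abbrev inX (q : Hz z) : X := (((q : ↥G₀) : X))

/-- The outer involution. -/
theorem exists_fix (hidx : G₀.index = 2)
    (hQ : ∀ x : X, x * (z : X) = (z : X) * x → ∀ q ∈ Q, ∃ q' ∈ Q, x * inX q * x⁻¹ = inX q')
    (hQc : ∀ x : X, x * (z : X) = (z : X) * x → (∀ q ∈ Q, x * inX q = inX q * x) → x ∈ G₀)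
    {x1 : X} (hx1 : x1 ∉ G₀) (hx1z : x1 * (z : X) = (z : X) * x1) (hx1t : x1 * inX D.t = inX D.t * x1)
    {Y0 : Subgroup D.CG} (hY : Y0.index = 2) (hqs : Cfsg.IsQuasisimple ↥Y0)
    (hfs : Cfsg.generalizedFittingSubgroup D.CG = Y0) {u : Hz z} (hu : D.Wit u)
    (huY : ∀ h : (u : ↥G₀) ∈ D.CG, (⟨(u : ↥G₀), h⟩ : D.CG) ∉ Y0)
    (hR : ∀ c : D.CG, (c : ↥G₀) * (D.d : ↥G₀) = (D.d : ↥G₀) * (c : ↥G₀) → c ∈ Y0)
    (hcen : ∀ y : D.CG, (∀ k ∈ Y0, (y : ↥G₀) * (k : ↥G₀) * (y : ↥G₀)⁻¹ * (k : ↥G₀)⁻¹ = 1 ∨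
      (y : ↥G₀) * (k : ↥G₀) * (y : ↥G₀)⁻¹ * (k : ↥G₀)⁻¹ = (D.t : ↥G₀)) → (y : ↥G₀) = 1 ∨ (y : ↥G₀) = (D.t : ↥G₀))
    (tK : ↥Y0) [hTn : (Subgroup.zpowers tK).Normal] (htK : ((tK : D.CG) : ↥G₀) = (D.t : ↥G₀))
    (e : ↥Y0 ⧸ Subgroup.zpowers tK ≃* Cfsg.Spor.Fi22) :
    ∃ d : X, d ∉ G₀ ∧ d * d = 1 ∧ d * (z : X) = (z : X) * d ∧
      ∀ y : D.CG, d * ((y : ↥G₀) : X) = ((y : ↥G₀) : X) * d ↔ y ∈ Y0 := by
  classical
  haveI hG0n : G₀.Normal := Subgroup.normal_of_index_eq_two hidx
  haveI hY0n : Y0.Normal := Subgroup.normal_of_index_eq_two hY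
  set T := Subgroup.zpowers tK with hT
  set tX : X := inX D.t
  have ht2 : tX * tX = 1 := congrArg (fun q : Hz z => inX q) D.t_sq
  have hmemCG : ∀ g : ↥G₀, (g : X) * tX = tX * (g : X) → g ∈ D.CG := fun g hg => D.mem_CG.2 (Subtype.ext hg)
  have htX : ∀ y : D.CG, ((y : ↥G₀) : X) * tX = tX * ((y : ↥G₀) : X) := fun y =>
    congrArg Subtype.val (D.mem_CG.1 y.2)
  have hKsq : tK * tK = 1 := Subtype.ext (Subtype.ext (by
    show ((tK : D.CG) : ↥G₀) * ((tK : D.CG) : ↥G₀) = 1
    rw [htK]; exact congrArg Subtype.val D.t_sq))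
  have hK1 : tK ≠ 1 := fun h => D.t_ne_one (Subtype.ext (htK.symm.trans (congrArg (fun a : Y0 => ((a : D.CG) : ↥G₀)) h)))
  have hT2 : ∀ a : ↥Y0, a ∈ T ↔ a = 1 ∨ a = tK := by
    intro a
    rw [hT, Subgroup.mem_zpowers_iff]
    constructor
    · rintro ⟨i, rfl⟩
      have h2 : tK ^ (2 : ℤ) = 1 := by rw [zpow_ofNat, pow_two, hKsq]
      rcases Int.even_or_odd' i with ⟨j, rfl | rfl⟩
      · exact Or.inl (by rw [zpow_mul, h2, one_zpow])
      · exact Or.inr (by rw [zpow_add, zpow_mul, h2, one_zpow, one_mul, zpow_one])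
    · rintro (rfl | rfl)
      exacts [⟨0, zpow_zero _⟩, ⟨1, zpow_one _⟩]
  have hKc : ∀ a : ↥Y0, Commute a tK := fun a => Subtype.ext (Subtype.ext (by
    show ((a : D.CG) : ↥G₀) * ((tK : D.CG) : ↥G₀) = ((tK : D.CG) : ↥G₀) * ((a : D.CG) : ↥G₀)
    rw [htK]; exact D.mem_CG.1 (a : D.CG).2))
  -- conjugation by the outer element
  let sG : ↥G₀ ≃* ↥G₀ := MulAut.conjNormal x1
  have hsG : ∀ g : ↥G₀, ((sG g : ↥G₀) : X) = x1 * (g : X) * x1⁻¹ := fun g => MulAut.conjNormal_apply _ g
  have hst : sG (D.t : ↥G₀) = (D.t : ↥G₀) := Subtype.ext (by rw [hsG]; exact mul_inv_eq_iff_eq_mul.2 hx1t)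
  have hmapCG : D.CG.map sG.toMonoidHom = D.CG := by
    ext g
    rw [Subgroup.mem_map_equiv, D.mem_CG, D.mem_CG]
    constructor <;> intro h
    · have := congrArg sG h
      rwa [map_mul, map_mul, sG.apply_symm_apply, hst] at this
    · have := congrArg sG.symm h
      rwa [map_mul, map_mul, show sG.symm (D.t : ↥G₀) = (D.t : ↥G₀) from sG.symm_apply_eq.2 hst.symm] at this
  let σ : D.CG ≃* D.CG := (sG.subgroupMap D.CG).trans (MulEquiv.subgroupCongr hmapCG)
  have hσ : ∀ y : D.CG, ((σ y : D.CG) : ↥G₀) = sG (y : ↥G₀) := fun y => rfl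
  have hσY : Y0.map σ.toMonoidHom = Y0 := by
    rw [← hfs]; exact CfsgLib.Cores.map_generalizedFittingSubgroup_equiv σ
  let σK : ↥Y0 ≃* ↥Y0 := (σ.subgroupMap Y0).trans (MulEquiv.subgroupCongr hσY)
  have hσK : ∀ a : ↥Y0, ((σK a : D.CG) : ↥G₀) = sG ((a : D.CG) : ↥G₀) := fun a => rfl
  have hσt : T.map σK.toMonoidHom = T := by
    rw [hT, MonoidHom.map_zpowers]
    congr 1
    exact Subtype.ext (Subtype.ext ((hσK tK).trans (by rw [htK, hst])))
  let α : MulAut (↥Y0 ⧸ T) := QuotientGroup.congr T T σK hσt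
  -- the action of the centraliser
  have hcT : ∀ y : D.CG, T.map (MulAut.conjNormal y : MulAut ↥Y0).toMonoidHom = T := by
    intro y
    rw [hT, MonoidHom.map_zpowers]
    congr 1
    refine Subtype.ext ?_
    show ((MulAut.conjNormal y : MulAut ↥Y0) tK : D.CG) = tK
    rw [MulAut.conjNormal_apply, mul_inv_eq_iff_eq_mul]
    exact Subtype.ext (by
      show (y : ↥G₀) * ((tK : D.CG) : ↥G₀) = ((tK : D.CG) : ↥G₀) * (y : ↥G₀)
      rw [htK]; exact D.mem_CG.1 y.2)
  let β : D.CG →* MulAut (↥Y0 ⧸ T) :=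
    { toFun := fun y => QuotientGroup.congr T T (MulAut.conjNormal y) (hcT y)
      map_one' := by
        refine MulEquiv.ext fun a => QuotientGroup.induction_on a fun k => ?_
        show (QuotientGroup.mk ((MulAut.conjNormal (1 : D.CG) : MulAut ↥Y0) k) : ↥Y0 ⧸ T) = QuotientGroup.mk k
        rw [map_one]; rfl
      map_mul' := fun a b => by
        refine MulEquiv.ext fun c => QuotientGroup.induction_on c fun k => ?_
        show (QuotientGroup.mk ((MulAut.conjNormal (a * b) : MulAut ↥Y0) k) : ↥Y0 ⧸ T) = _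
        rw [map_mul]; rfl }
  have hβker : ∀ y, y ∈ β.ker ↔ y = 1 ∨ y = (tK : D.CG) := by
    intro y
    rw [MonoidHom.mem_ker]
    constructor
    · intro hy
      have key : ∀ k ∈ Y0, (y : ↥G₀) * (k : ↥G₀) * (y : ↥G₀)⁻¹ * (k : ↥G₀)⁻¹ = 1 ∨
          (y : ↥G₀) * (k : ↥G₀) * (y : ↥G₀)⁻¹ * (k : ↥G₀)⁻¹ = (D.t : ↥G₀) := by
        intro k hk
        have h1 : (QuotientGroup.mk ((MulAut.conjNormal y : MulAut ↥Y0) ⟨k, hk⟩) : ↥Y0 ⧸ T) =
            QuotientGroup.mk ⟨k, hk⟩ := DFunLike.congr_fun hy (QuotientGroup.mk (s := T) ⟨k, hk⟩)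
        rw [eq_comm, QuotientGroup.eq, hT2] at h1
        rcases h1 with h1 | h1
        · left
          have h2 : (y : ↥G₀) * (k : ↥G₀) * (y : ↥G₀)⁻¹ = (k : ↥G₀) :=
            (congrArg (fun a : Y0 => ((a : D.CG) : ↥G₀)) (inv_mul_eq_one.1 h1)).symm
          rw [h2, mul_inv_cancel]
        · right
          have h2 : (y : ↥G₀) * (k : ↥G₀) * (y : ↥G₀)⁻¹ = (k : ↥G₀) * (D.t : ↥G₀) := by
            rw [← htK]; exact congrArg (fun a : Y0 => ((a : D.CG) : ↥G₀)) (inv_mul_eq_iff_eq_mul.1 h1)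
          rw [h2, D.mem_CG.1 k.2, mul_inv_cancel_right]
      rcases hcen y key with h1 | h1
      exacts [Or.inl (Subtype.ext h1), Or.inr (Subtype.ext (h1.trans htK.symm))]
    · rintro (rfl | rfl)
      · exact map_one β
      · refine MulEquiv.ext fun a => QuotientGroup.induction_on a fun k => ?_
        show (QuotientGroup.mk ((MulAut.conjNormal (tK : D.CG) : MulAut ↥Y0) k) : ↥Y0 ⧸ T) = QuotientGroup.mk k
        congr 1
        refine Subtype.ext ?_
        rw [MulAut.conjNormal_apply]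
        exact mul_inv_eq_iff_eq_mul.2 (congrArg Subtype.val (hKc k).eq.symm)
  haveI hF := AutEnd.finite_fi22
  haveI : Fact (Nat.Prime 2) := ⟨Nat.prime_two⟩
  have hTcard : Nat.card T = 2 := by
    rw [hT, Nat.card_zpowers]
    exact orderOf_eq_prime (by rw [pow_two]; exact hKsq) hK1
  have hsurj : Function.Surjective β := by
    have hk : Nat.card β.ker = 2 := by
      have hset : (β.ker : Set D.CG) = {1, (tK : D.CG)} := Set.ext fun y => hβker y
      rw [← SetLike.coe_sort_coe, Nat.card_coe_set_eq, hset]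
      exact Set.ncard_pair fun h => hK1 (Subtype.ext h.symm)
    have h1 : Nat.card D.CG = 2 * Nat.card β.range := by
      have := β.ker.index_mul_card
      rw [Subgroup.index_ker, hk] at this
      rw [← this, mul_comm]
    have h2 : Nat.card D.CG = 2 * Nat.card (↥Y0) := by rw [← Y0.index_mul_card, hY]
    have h3 : Nat.card (↥Y0) = Nat.card (↥Y0 ⧸ T) * 2 := by
      rw [Subgroup.card_eq_card_quotient_mul_card_subgroup T, hTcard]
    have h4 : Nat.card (MulAut (↥Y0 ⧸ T)) = 2 * Nat.card (↥Y0 ⧸ T) := by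
      rw [Nat.card_congr (MulAut.congr e).toEquiv, AutEnd.natCard_mulAut_fi22, Nat.card_congr e.toEquiv]
    refine MonoidHom.range_eq_top.1 (Subgroup.eq_top_of_card_eq _ ?_)
    omega
  obtain ⟨c, hc⟩ := hsurj α
  set d : X := ((c : ↥G₀) : X)⁻¹ * x1
  have hd0 : d ∉ G₀ := fun h => hx1 ((Subgroup.mul_mem_cancel_left _ (G₀.inv_mem (c : ↥G₀).2)).1 h)
  -- it centralises the kernel
  let τ : ↥Y0 ≃* ↥Y0 := σK.trans (MulAut.conjNormal c : MulAut ↥Y0).symm
  have hτv : ∀ k : ↥Y0, (((τ k : D.CG) : ↥G₀) : X) = d * (((k : D.CG) : ↥G₀) : X) * d⁻¹ := by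
    intro k
    have h1 : ((τ k : D.CG) : ↥G₀) = (c : ↥G₀)⁻¹ * sG ((k : D.CG) : ↥G₀) * (c : ↥G₀) := by
      show (((MulAut.conjNormal c : MulAut ↥Y0).symm (σK k) : D.CG) : ↥G₀) = _
      rw [MulAut.conjNormal_symm_apply, Subgroup.coe_mul, Subgroup.coe_mul, Subgroup.coe_inv, hσK]
    rw [h1, Subgroup.coe_mul, Subgroup.coe_mul, Subgroup.coe_inv, hsG]
    simp only [d]
    group
  have hτT : ∀ k : ↥Y0, τ k * k⁻¹ ∈ T := by
    intro k
    have h1 : (QuotientGroup.mk (τ k) : ↥Y0 ⧸ T) = QuotientGroup.mk k := by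
      have h2 : β c (QuotientGroup.mk (τ k)) = α (QuotientGroup.mk k) := by
        show (QuotientGroup.mk ((MulAut.conjNormal c : MulAut ↥Y0) (τ k)) : ↥Y0 ⧸ T) = QuotientGroup.mk (σK k)
        congr 1
        exact (MulAut.conjNormal c : MulAut ↥Y0).apply_symm_apply (σK k)
      rw [← hc] at h2
      exact (β c).injective h2
    rw [eq_comm, QuotientGroup.eq] at h1
    have h3 := hTn.conj_mem _ h1 k
    rwa [mul_inv_cancel_left] at h3
  have hτ : ∀ k : ↥Y0, τ k = k := by
    haveI := hqs.1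
    have hcomm : ∀ w ∈ T, ∀ a : ↥Y0, Commute a w := fun w hw a => by
      rcases (hT2 w).1 hw with rfl | rfl
      exacts [Commute.one_right a, hKc a]
    let ε : ↥Y0 →* T :=
      { toFun := fun k => ⟨τ k * k⁻¹, hτT k⟩
        map_one' := Subtype.ext (by
          show τ 1 * 1⁻¹ = 1
          rw [map_one, inv_one, mul_one])
        map_mul' := fun a b => Subtype.ext (by
          show τ (a * b) * (a * b)⁻¹ = τ a * a⁻¹ * (τ b * b⁻¹)
          rw [map_mul, mul_inv_rev, mul_assoc (τ a), ← mul_assoc (τ b), ← (hcomm _ (hτT b) a⁻¹).eq, ← mul_assoc]) }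
    letI : CommGroup T := { (inferInstance : Group T) with
      mul_comm := fun a b => Subtype.ext (hcomm _ b.2 (a : ↥Y0)).eq }
    intro k
    have h1 : k ∈ ε.ker := Abelianization.commutator_subset_ker ε (by
      rw [Group.IsPerfect.commutator_eq_top]; exact Subgroup.mem_top k)
    exact mul_inv_eq_one.1 (congrArg Subtype.val h1)
  have hfix : ∀ y : D.CG, y ∈ Y0 → d * ((y : ↥G₀) : X) = ((y : ↥G₀) : X) * d := fun y hy => by
    refine mul_inv_eq_iff_eq_mul.1 ?_
    rw [← hτv ⟨y, hy⟩, hτ]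
  have hR' : ∀ r : Hz z, r * D.t = D.t * r → r * D.d = D.d * r → d * inX r = inX r * d := fun r h1 h2 =>
    hfix ⟨(r : ↥G₀), D.mem_CG.2 (congrArg Subtype.val h1)⟩ (hR _ (congrArg Subtype.val h2))
  have hdt : d * tX = tX * d := hR' D.t rfl D.td_comm
  have hdz : d * (z : X) = (z : X) * d :=
    hR' (zH z) (zH_comm D.t).symm (zH_comm D.d).symm
  -- the commutators with `Q`
  have hti : D.t⁻¹ = D.t := inv_eq_of_mul_eq_one_right D.t_sq
  have hdi : D.d⁻¹ = D.d := inv_eq_of_mul_eq_one_right D.d_sq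
  have htd1 : ¬ Near (D.t * D.d) 1 := fun h => D.dt_ne (by rw [← D.td_comm]; exact h)
  obtain ⟨qa, hqa, haa, hab⟩ := exists_sep D.hs D.t_mem D.d_mem (fun h => D.t_ne (Or.inl h))
    (fun h => D.t_ne (Or.inr (by rw [h, mul_one]))) htd1
  obtain ⟨qb, hqb, hbb, hba⟩ := exists_sep D.hs D.d_mem D.t_mem (fun h => D.d_ne (Or.inl h))
    (fun h => D.d_ne (Or.inr (by rw [h, mul_one]))) D.dt_ne
  have hcases : ∀ q ∈ Q, ∃ a ∈ Q, d * inX q * d⁻¹ = inX (q * a) ∧ a * a = 1 ∧ d * inX a = inX a * d ∧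
      (Near a 1 ∨ Near a D.t ∨ Near a D.d ∨ Near a (D.d * D.t)) ∧
      ∀ r ∈ Q, d * inX r = inX r * d → r * a = a * r := by
    intro q hq
    obtain ⟨q', hq', hqe⟩ := hQ d hdz q hq
    have hra : ∀ r ∈ Q, d * inX r = inX r * d → r * (q⁻¹ * q') = q⁻¹ * q' * r := by
      intro r hr hdr
      obtain ⟨ε, hε, hεe⟩ : ∃ ε : Hz z, (ε = 1 ∨ ε = zH z) ∧ q * r * q⁻¹ = ε * r := by
        rcases conj_cases D.hs hr hq with e | e
        · exact ⟨1, Or.inl rfl, by rw [one_mul]; exact e⟩
        · exact ⟨_, Or.inr rfl, e⟩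
      have hdε : d * inX ε = inX ε * d := by
        rcases hε with rfl | rfl
        · show d * 1 = 1 * d
          rw [mul_one, one_mul]
        · exact hdz
      have hr' : d * inX r * d⁻¹ = inX r := mul_inv_eq_iff_eq_mul.2 hdr
      have hε' : d * inX ε * d⁻¹ = inX ε := mul_inv_eq_iff_eq_mul.2 hdε
      have h2 : q' * r * q'⁻¹ = q * r * q⁻¹ := by
        rw [hεe]
        refine Subtype.ext (Subtype.ext ?_)
        show inX q' * inX r * (inX q')⁻¹ = inX ε * inX r
        calc inX q' * inX r * (inX q')⁻¹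
            = d * inX q * d⁻¹ * (d * inX r * d⁻¹) * (d * inX q * d⁻¹)⁻¹ := by rw [hqe, hr']
          _ = d * inX (q * r * q⁻¹) * d⁻¹ := by
            show _ = d * (inX q * inX r * (inX q)⁻¹) * d⁻¹
            group
          _ = d * inX ε * d⁻¹ * (d * inX r * d⁻¹) := by
            rw [hεe]
            show d * (inX ε * inX r) * d⁻¹ = _
            group
          _ = inX ε * inX r := by rw [hε', hr']
      calc r * (q⁻¹ * q') = q⁻¹ * (q * r * q⁻¹) * q' := by group
        _ = q⁻¹ * (q' * r * q'⁻¹) * q' := by rw [h2]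
        _ = q⁻¹ * q' * r := by group
    have ha := Q.mul_mem (Q.inv_mem hq) hq'
    have hfour : Near (q⁻¹ * q') 1 ∨ Near (q⁻¹ * q') D.t ∨ Near (q⁻¹ * q') D.d ∨ Near (q⁻¹ * q') (D.d * D.t) := by
      rcases double_cent D.hs D.t_mem D.d_mem ha hqa hqb haa hab hba hbb
        (fun p hp h1 h2 => hra p hp (hR' p h1 h2)) with h | h | h | h | h
      · exact Or.inl h
      · rw [hti] at h; exact Or.inr (Or.inl h)
      · rw [hdi] at h; exact Or.inr (Or.inr (Or.inl h))
      · rw [hti, hdi] at h; exact Or.inr (Or.inr (Or.inr h))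
      · rw [hti, hdi, D.td_comm] at h; exact Or.inr (Or.inr (Or.inr h))
    have hsq : ∀ b a : Hz z, b * b = 1 → Near a b → a * a = 1 := by
      rintro b a hb (rfl | rfl)
      · exact hb
      · rw [mul_assoc, ← mul_assoc b, zH_comm, mul_assoc (zH z) b, hb, mul_one, zH_sq D.hs]
    have hct : D.t * D.d = D.d * D.t := D.td_comm
    have hdtt : D.t * (D.d * D.t) = D.d * D.t * D.t := by rw [← mul_assoc, hct]
    have hdtd : D.d * (D.d * D.t) = D.d * D.t * D.d := by rw [mul_assoc, hct]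
    refine ⟨q⁻¹ * q', ha, by rw [mul_inv_cancel_left]; exact hqe, ?_, ?_, hfour, hra⟩
    · rcases hfour with h | h | h | h
      exacts [hsq _ _ (one_mul 1) h, hsq _ _ D.t_sq h, hsq _ _ D.d_sq h, hsq _ _ D.dt_sq h]
    · refine hR' _ ?_ ?_ <;> symm
      · rcases hfour with h | h | h | h <;> refine comm_of_near D.hs h ?_
        exacts [by rw [mul_one, one_mul], rfl, hct, hdtt]
      · rcases hfour with h | h | h | h <;> refine comm_of_near D.hs h ?_
        exacts [by rw [mul_one, one_mul], hct.symm, rfl, hdtd]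
  -- it is an involution
  have hdd : d * d = 1 := by
    have hG : d * d ∈ G₀ := Subgroup.mul_self_mem_of_index_two hidx d
    have hct : (d * d) * tX = tX * (d * d) := ((show Commute d tX from hdt).mul_left hdt).eq
    have key := hcen ⟨⟨d * d, hG⟩, hmemCG _ hct⟩ fun k hk => Or.inl (Subtype.ext (by
      show d * d * ((k : ↥G₀) : X) * (d * d)⁻¹ * ((k : ↥G₀) : X)⁻¹ = 1
      rw [((show Commute d _ from hfix k hk).mul_left (hfix k hk)).eq, mul_inv_cancel_right, mul_inv_cancel]))
    rcases key with h | h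
    · exact congrArg Subtype.val h
    · exfalso
      have h' : d * d = tX := congrArg Subtype.val h
      obtain ⟨y, hy, hyt⟩ := exists_conj D.hs D.t_mem (fun e => D.t_ne (Or.inl e))
        (fun e => D.t_ne (Or.inr (by rw [e, mul_one])))
      obtain ⟨a, -, hae, ha2, had, -, -⟩ := hcases y hy
      have h2 : d * d * inX y * (d * d)⁻¹ = inX y := by
        calc d * d * inX y * (d * d)⁻¹ = d * (d * inX y * d⁻¹) * d⁻¹ := by group
          _ = d * inX y * d⁻¹ * (d * inX a * d⁻¹) := by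
            conv_lhs => rw [hae]
            show d * (inX y * inX a) * d⁻¹ = _
            group
          _ = inX y := by
            rw [mul_inv_eq_iff_eq_mul.2 had, hae]
            show inX y * inX a * inX a = inX y
            rw [mul_assoc, show inX a * inX a = 1 from congrArg (fun w : Hz z => inX w) ha2, mul_one]
      rw [h'] at h2
      have h3 : D.t * y = y * D.t := Subtype.ext (Subtype.ext (mul_inv_eq_iff_eq_mul.1 h2))
      rw [← h3, mul_inv_cancel_right] at hyt
      exact zH_ne_one D.hs (mul_eq_right.1 hyt.symm)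
  -- it does not centralise the witness
  have hud : d * inX u ≠ inX u * d := by
    intro hdu
    have hCQ : ∀ r ∈ Q, r * D.t = D.t * r → d * inX r = inX r * d := by
      intro r hr hrt
      by_cases hrd : r * D.d = D.d * r
      · exact hR' r hrt hrd
      · have h1 : r * u * D.t = D.t * (r * u) :=
          ((show Commute r D.t from hrt).mul_left hu.comm).eq
        have h2 := hR' (r * u) h1 ((comm_mul_iff D.hs D.d_mem hr hu.mem).2 (iff_of_false hrd hu.ncomm))
        have h3 : inX r = inX (r * u) * (inX u)⁻¹ := (mul_inv_cancel_right _ _).symm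
        rw [h3]
        exact ((show Commute d _ from h2).mul_right (show Commute d (inX u) from hdu).inv_right).eq
    have hone : ∀ q ∈ Q, d * inX q * d⁻¹ = inX q ∨ d * inX q * d⁻¹ = inX (q * zH z) := by
      intro q hq
      by_cases hqt : q * D.t = D.t * q
      · exact Or.inl (mul_inv_eq_iff_eq_mul.2 (hCQ q hq hqt))
      obtain ⟨a, ha, hae, ha2, -, hfour, hra⟩ := hcases q hq
      have hau : u * a = a * u := hra u hu.mem hdu
      have flip : ∀ {b : Hz z}, Near a b → u * b = b * u := fun h => comm_of_near D.hs (near_symm D.hs h) hau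
      rcases hfour with (h | h) | h | h | h
      · exact Or.inl (by rw [hae, h, mul_one])
      · exact Or.inr (by rw [hae, h, mul_one])
      · exfalso
        refine hqt ?_
        have hq2 : d * inX (q * q) = inX (q * q) * d :=
          hR' _ (by rcases sq_cases D.hs hq with e | e <;> rw [e] <;> simp [zH_comm])
            (by rcases sq_cases D.hs hq with e | e <;> rw [e] <;> simp [zH_comm])
        have h2 : q * a * (q * a) = q * q := by
          refine Subtype.ext (Subtype.ext ?_)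
          show inX (q * a) * inX (q * a) = inX (q * q)
          rw [← hae, ← mul_inv_eq_iff_eq_mul.2 hq2]
          show _ = d * (inX q * inX q) * d⁻¹
          group
        have h3 : a * q = q * a := by
          calc a * q = q⁻¹ * (q * a * (q * a)) * a⁻¹ := by group
            _ = q⁻¹ * (q * q) * a := by rw [h2, inv_eq_of_mul_eq_one_right ha2]
            _ = q * a := by group
        exact comm_of_near D.hs (near_symm D.hs h) h3.symm
      · exact absurd (flip h) hu.ncomm
      · refine absurd ?_ hu.ncomm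
        have h4 := flip h
        have h5 : Commute u (D.d * D.t * D.t) :=
          (show Commute u (D.d * D.t) from h4).mul_right (show Commute u D.t from hu.comm)
        rw [mul_assoc, D.t_sq, mul_one] at h5
        exact h5.eq
    obtain ⟨q1, hq1, hq1t⟩ := exists_conj D.hs D.t_mem (fun e => D.t_ne (Or.inl e))
      (fun e => D.t_ne (Or.inr (by rw [e, mul_one])))
    have hq1n : ¬ q1 * D.t = D.t * q1 := fun e => by
      rw [e, mul_inv_cancel_right] at hq1t
      exact zH_ne_one D.hs (mul_eq_right.1 hq1t.symm)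
    have finish : ∀ e : X, e * (z : X) = (z : X) * e → (∀ r ∈ Q, r * D.t = D.t * r → e * inX r = inX r * e) →
        e * inX q1 = inX q1 * e → e ∈ G₀ := by
      intro e he hr h1
      refine hQc e he fun q hq => ?_
      by_cases hqt : q * D.t = D.t * q
      · exact hr q hq hqt
      · have h2 := hr (q * q1) (Q.mul_mem hq hq1) ((comm_mul_iff D.hs D.t_mem hq hq1).2 (iff_of_false hqt hq1n))
        rw [show inX q = inX (q * q1) * (inX q1)⁻¹ from (mul_inv_cancel_right _ _).symm]
        exact ((show Commute e _ from h2).mul_right (show Commute e (inX q1) from h1).inv_right).eq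
    rcases hone q1 hq1 with h | h
    · exact hd0 (finish d hdz hCQ (mul_inv_eq_iff_eq_mul.1 h))
    · have htzX : tX * (z : X) = (z : X) * tX := congrArg (fun w : Hz z => inX w) (zH_comm D.t)
      have ht1 : tX * inX q1 * tX⁻¹ = inX q1 * (z : X) := by
        have h2 : D.t * q1 * D.t⁻¹ = q1 * zH z := by
          rcases conj_cases D.hs hq1 D.t_mem with e | e
          · exact absurd (mul_inv_eq_iff_eq_mul.1 e).symm hq1n
          · rw [e, zH_comm]
        exact congrArg (fun w : Hz z => inX w) h2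
      have hmem := finish (d * tX) ((show Commute d (z : X) from hdz).mul_left htzX).eq
        (fun r hr hrt => ((show Commute d (inX r) from hCQ r hr hrt).mul_left
          (show Commute tX (inX r) from (congrArg (fun w : Hz z => inX w) hrt).symm)).eq)
        (by
          refine mul_inv_eq_iff_eq_mul.1 ?_
          calc d * tX * inX q1 * (d * tX)⁻¹ = d * (tX * inX q1 * tX⁻¹) * d⁻¹ := by group
            _ = d * inX q1 * d⁻¹ * (d * (z : X) * d⁻¹) := by rw [ht1]; group
            _ = inX q1 := by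
              rw [h, mul_inv_eq_iff_eq_mul.2 hdz]
              show inX q1 * (z : X) * (z : X) = inX q1
              rw [mul_assoc, show (z : X) * (z : X) = 1 from congrArg (fun w : Hz z => inX w) (zH_sq D.hs), mul_one])
      exact hd0 ((Subgroup.mul_mem_cancel_right _ (D.t : ↥G₀).2).1 hmem)
  refine ⟨d, hd0, hdd, hdz, fun y => ⟨fun hy => ?_, hfix y⟩⟩
  by_contra hy0
  apply hud
  set u' : D.CG := ⟨(u : ↥G₀), D.mem_CG.2 (congrArg Subtype.val hu.comm)⟩
  have h1 : y⁻¹ * u' ∈ Y0 := by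
    rw [Subgroup.mul_mem_iff_of_index_two hY, inv_mem_iff]
    exact iff_of_false hy0 (huY _)
  have h2 : inX u = ((y : ↥G₀) : X) * (((y⁻¹ * u' : D.CG) : ↥G₀) : X) := by
    show inX u = _ * (((y : ↥G₀) : X)⁻¹ * inX u)
    rw [mul_inv_cancel_left]
  rw [h2]
  exact ((show Commute d _ from hy).mul_right (hfix _ h1)).eq

end CfsgLib.LargeFischer.TypeTwo.Extension
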