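import Cfsg.Agent.S5377
import Cfsg.Agent.Lib.Cores.Quasisimple

/-!
Groups with an involution whose centralizer is a double cover of `PSU₆(2)`, not isolated in it: transport along
isomorphisms, the type M(22), and the passage to a centralizer isomorphic to a given quasisimple group.
-/

set_option autoImplicit false
set_option linter.style.haveILetI false

namespace CfsgLib.LargeFischer.TypeTwo.Extension

/-- An involution whose centralizer is a quasisimple double cover of `PSU₆(2)` and is not weakly closed in it. -/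
def Inv22 (A : Type*) [Group A] : Prop :=
  ∃ d' : A, orderOf d' = 2 ∧ Cfsg.IsQuasisimple ↥(Subgroup.centralizer ({d'} : Set A)) ∧
    (∃ (K : Type) (_ : Field K) (_ : Fintype K), Fintype.card K = 4 ∧
      ∃ _ : ((Subgroup.zpowers d').subgroupOf (Subgroup.centralizer ({d'} : Set A))).Normal,
        Nonempty (↥(Subgroup.centralizer ({d'} : Set A)) ⧸
          (Subgroup.zpowers d').subgroupOf (Subgroup.centralizer ({d'} : Set A)) ≃* Cfsg.PSU 6 K 2)) ∧
    ∃ g, g * d' * g⁻¹ ∈ Subgroup.centralizer ({d'} : Set A) ∧ g * d' * g⁻¹ ≠ d'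

/-- The group generated by an element is normal in the centralizer of the element. -/
theorem normal_zpowers {A : Type*} [Group A] (x : A) :
    ((Subgroup.zpowers x).subgroupOf (Subgroup.centralizer ({x} : Set A))).Normal := by
  refine ⟨fun a ha g => ?_⟩
  rw [Subgroup.mem_subgroupOf] at ha ⊢
  obtain ⟨k, hk⟩ := Subgroup.mem_zpowers_iff.1 ha
  have hg : Commute (g : A) x := Subgroup.mem_centralizer_singleton_iff.1 g.2
  refine Subgroup.mem_zpowers_iff.2 ⟨k, ?_⟩
  rw [Subgroup.coe_mul, Subgroup.coe_mul, Subgroup.coe_inv, ← hk, (hg.zpow_right k).eq, mul_inv_cancel_right]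

/-- An isomorphism of centralizers induced by an isomorphism of groups. -/
def centEquiv {A B : Type*} [Group A] [Group B] (e : A ≃* B) (d : A) :
    ↥(Subgroup.centralizer ({d} : Set A)) ≃* ↥(Subgroup.centralizer ({e d} : Set B)) where
  toFun x := ⟨e x, Subgroup.mem_centralizer_singleton_iff.2 (by
    rw [← map_mul, ← map_mul, Subgroup.mem_centralizer_singleton_iff.1 x.2])⟩
  invFun y := ⟨e.symm y, Subgroup.mem_centralizer_singleton_iff.2 (e.injective (by
    rw [map_mul, map_mul, e.apply_symm_apply, Subgroup.mem_centralizer_singleton_iff.1 y.2]))⟩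
  left_inv x := Subtype.ext (e.symm_apply_apply x)
  right_inv y := Subtype.ext (e.apply_symm_apply y)
  map_mul' x y := Subtype.ext (map_mul e (x : A) y)

theorem Inv22.map {A B : Type*} [Group A] [Group B] (e : A ≃* B) (h : Inv22 A) : Inv22 B := by
  obtain ⟨d, hd, hq, ⟨K, iF, iT, hK, hn, ⟨f⟩⟩, g, hg, hgne⟩ := h
  haveI := hn
  haveI := normal_zpowers (e d)
  have hmap : ((Subgroup.zpowers d).subgroupOf (Subgroup.centralizer ({d} : Set A))).map
      (centEquiv e d : ↥(Subgroup.centralizer ({d} : Set A)) →* ↥(Subgroup.centralizer ({e d} : Set B))) =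
      (Subgroup.zpowers (e d)).subgroupOf (Subgroup.centralizer ({e d} : Set B)) := by
    ext y
    simp only [Subgroup.mem_map, Subgroup.mem_subgroupOf]
    constructor
    · rintro ⟨x, hx, rfl⟩
      obtain ⟨k, hk⟩ := Subgroup.mem_zpowers_iff.1 hx
      refine Subgroup.mem_zpowers_iff.2 ⟨k, ?_⟩
      show e d ^ k = e (x : A)
      rw [← map_zpow, hk]
    · intro hy
      obtain ⟨k, hk⟩ := Subgroup.mem_zpowers_iff.1 hy
      refine ⟨(centEquiv e d).symm y, Subgroup.mem_zpowers_iff.2 ⟨k, ?_⟩, (centEquiv e d).apply_symm_apply y⟩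
      show d ^ k = e.symm (y : B)
      rw [← hk, ← map_zpow, e.symm_apply_apply]
  refine ⟨e d, (MulEquiv.orderOf_eq e d).trans hd, (CfsgLib.Cores.isQuasisimple_congr (centEquiv e d)).1 hq,
    ⟨K, iF, iT, hK, normal_zpowers (e d), ⟨(QuotientGroup.congr _ _ (centEquiv e d) hmap).symm.trans f⟩⟩, e g, ?_, ?_⟩
  · rw [← map_inv, ← map_mul, ← map_mul, Subgroup.mem_centralizer_singleton_iff, ← map_mul, ← map_mul,
      Subgroup.mem_centralizer_singleton_iff.1 hg]
  · rw [← map_inv, ← map_mul, ← map_mul]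
    exact fun h => hgne (e.injective h)

theorem Inv22.type22 {A : Type*} [Group A] [Finite A] (h : Inv22 A) :
    ∃ E : Set A, Cfsg.IsThreeTranspositionClass E ∧ Cfsg.IsOfTypeM22 A E := by
  obtain ⟨d, hd, hq, ⟨K, iF, iT, hK, hn, ⟨f⟩⟩, hnwc⟩ := h
  haveI := hn
  exact ⟨conjugatesOf d, Cfsg.Agent.S5377.result d hd hq K hK f hnwc⟩

theorem of_equiv {Y C : Type*} [Group Y] [Finite Y] [Group C] (t : Y)
    (φ : ↥(Subgroup.centralizer ({t} : Set Y)) ≃* C) (tC : C) (ht : ∀ h, φ ⟨t, h⟩ = tC)
    (hq : Cfsg.IsQuasisimple C) [(Subgroup.zpowers tC).Normal] (h : Inv22 (C ⧸ Subgroup.zpowers tC)) :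
    Cfsg.IsQuasisimple ↥(Subgroup.centralizer ({t} : Set Y)) ∧
      ∃ (_ : ((Subgroup.zpowers t).subgroupOf (Subgroup.centralizer ({t} : Set Y))).Normal),
        (∃ E : Set (↥(Subgroup.centralizer ({t} : Set Y)) ⧸
            (Subgroup.zpowers t).subgroupOf (Subgroup.centralizer ({t} : Set Y))),
          Cfsg.IsThreeTranspositionClass E ∧ Cfsg.IsOfTypeM22 _ E) ∧
        Inv22 (↥(Subgroup.centralizer ({t} : Set Y)) ⧸
          (Subgroup.zpowers t).subgroupOf (Subgroup.centralizer ({t} : Set Y))) := by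
  haveI := normal_zpowers t
  have hmem : t ∈ Subgroup.centralizer ({t} : Set Y) := Subgroup.mem_centralizer_singleton_iff.2 rfl
  have hz : (Subgroup.zpowers t).subgroupOf (Subgroup.centralizer ({t} : Set Y)) =
      Subgroup.zpowers (⟨t, hmem⟩ : ↥(Subgroup.centralizer ({t} : Set Y))) := by
    ext x
    rw [Subgroup.mem_subgroupOf, Subgroup.mem_zpowers_iff, Subgroup.mem_zpowers_iff]
    simp only [Subtype.ext_iff, Subgroup.coe_zpow]
  have hmap : ((Subgroup.zpowers t).subgroupOf (Subgroup.centralizer ({t} : Set Y))).map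
      (φ : ↥(Subgroup.centralizer ({t} : Set Y)) →* C) = Subgroup.zpowers tC := by
    rw [hz, MonoidHom.map_zpowers]
    show Subgroup.zpowers (φ ⟨t, hmem⟩) = _
    rw [ht hmem]
  have h' := Inv22.map (QuotientGroup.congr _ _ φ hmap).symm h
  exact ⟨(CfsgLib.Cores.isQuasisimple_congr φ).2 hq, normal_zpowers t, h'.type22, h'⟩

end CfsgLib.LargeFischer.TypeTwo.Extension
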