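import Cfsg.Agent.Lib.LargeFischer.TypeTwo.Main
import Cfsg.Agent.Lib.LargeFischer.TypeTwo.Extension.Inv22

/-!
Large Fischer type: the centraliser of the involution of the first duad has generalised Fitting subgroup of index
two, and modulo the involution is the automorphism group of `Fi₂₂`.
-/

set_option autoImplicit false
set_option linter.unusedSectionVars false
set_option linter.style.haveILetI false

namespace CfsgLib.LargeFischer.TypeTwo.Extension

open Cfsg CfsgLib.FischerLarge CfsgLib.FischerLarge.U62 CfsgLib.Golay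

universe u

variable {G : Type u} [Group G] [Finite G] {z : G} {Q M : Subgroup (Hz z)} [hQn : Q.Normal]
  {P : Type} [Group P] [Finite P] {V : Type u} [AddCommGroup V] [Module K4 V] [Finite V]
  {L : Subgroup (V ≃ₗ[K4] V)} {f : L →* P} {h : V → V → K4} {π : Hz z → V} {Ly : Layer z (U62.QG' Q)}
  {x : Hz z} {pf : GolayPt}

/-- The kernel with the elements the recognition needs. -/
theorem exists_kernel (St : Setup Q M L f h π Ly x pf) (hF : IsOfLargeFischerTypeAt z Q)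
    (hq : IsQuasisimple ↥(CE Ly)) :
    ∃ (D : Pair z Q) (Y0 : Subgroup D.CG) (g s : D.CG) (u : Hz z)
      (gN : ↥(Subgroup.normalizer (Ly.A : Set G))), (g : G) = (gN : G) ∧ Ly.act gN (pt 0) = pt 0 ∧
      Ly.act gN (pt 1) = pt 1 ∧ Ly.act gN (pt 2) = pt 3 ∧ D.Wit u ∧
      (∀ hu : (u : G) ∈ D.CG, (⟨(u : G), hu⟩ : D.CG) ∉ Y0) ∧ (D.t : G) = Ly.D (pt 0) (pt 1) ∧ Y0.index = 2 ∧
      s ∉ Y0 ∧ (s : G) * (D.d : G) * (s : G)⁻¹ = (D.d : G) * (D.t : G) ∧
      (∀ c : D.CG, (c : G) ∈ CE Ly → c ∈ Y0) ∧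
      (∀ c : G, c * (D.t : G) = (D.t : G) * c → c * (D.d : G) = (D.d : G) * c → c ∈ CE Ly) ∧
      (D.d : G) ∈ fourGroup Ly ∧ g ∈ Y0 ∧
      (g : G) * (D.d : G) * (g : G)⁻¹ ∈ Ly.A ∧ (g : G) * (D.d : G) * (g : G)⁻¹ ≠ (D.d : G) ∧
      (g : G) * (D.d : G) * (g : G)⁻¹ ≠ (D.d : G) * (D.t : G) := by
  classical
  obtain ⟨D, u, hDt, hd4, hu, hnt, hun, htun⟩ := exists_pair St hF
  obtain ⟨Y0, hidx, huY⟩ := D.exists_index_two hu hnt hun htun
  haveI hY0n : Y0.Normal := Subgroup.normal_of_index_eq_two hidx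
  obtain ⟨h01, h02, h03, h12, h13, h23⟩ := pt_small_ne
  have hd_ne : (D.d : G) ≠ 1 := fun e => D.d_ne (Or.inl (Subtype.ext e))
  have hd_t : (D.d : G) ≠ (D.t : G) := fun e => D.d_ne_t (Or.inl (Subtype.ext e))
  have hd : (D.d : G) = Ly.D (pt 0) (pt 2) ∨ (D.d : G) = Ly.D (pt 1) (pt 2) := by
    rcases hd4 with e | e | e | e
    · exact absurd e hd_ne
    · exact absurd (e.trans hDt.symm) hd_t
    · exact Or.inl e
    · exact Or.inr e
  have ht4 : (D.t : G) ∈ fourGroup Ly :=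
    hDt ▸ D_mem_fourGroup Ly (p := pt 0) (q := pt 1) (Or.inl rfl) (Or.inr (Or.inl rfl))
  have hCEle : CE Ly ≤ D.CG := fun c hc => D.mem_CG.2 (Subgroup.mem_centralizer_iff.1 hc _ ht4).symm
  have hcent : ∀ c : G, c * (D.t : G) = (D.t : G) * c → c * (D.d : G) = (D.d : G) * c → c ∈ CE Ly := by
    intro c hct hcd
    have h1 : Commute c (D.t : G) := hct
    have h2 : Commute c (D.d : G) := hcd
    rw [hDt] at h1
    refine Subgroup.mem_centralizer_iff.2 ?_
    rintro e (rfl | rfl | rfl | rfl)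
    · rw [one_mul, mul_one]
    · exact h1.symm.eq
    · rcases hd with e' | e' <;> rw [e'] at h2
      · exact h2.symm.eq
      · rw [← Ly.D_trans (pt 0) (pt 1) (pt 2)]; exact (h1.mul_right h2).symm.eq
    · rcases hd with e' | e' <;> rw [e'] at h2
      · rw [← (D_mul_chain Ly (pt 0) (pt 1) (pt 2)).1]; exact (h1.mul_right h2).symm.eq
      · exact h2.symm.eq
  -- the centraliser of the four-group lies in the kernel
  have hCY0 : ∀ c : D.CG, (c : G) ∈ CE Ly → c ∈ Y0 := by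
    intro c hc
    haveI := hq.1
    let j : ↥(CE Ly) →* D.CG ⧸ Y0 := (QuotientGroup.mk' Y0).comp (Subgroup.inclusion hCEle)
    have hcard : Nat.card (D.CG ⧸ Y0) = 2 := hidx
    haveI : Fact (Nat.Prime 2) := ⟨Nat.prime_two⟩
    haveI := isCyclic_of_prime_card (p := 2) hcard
    letI := IsCyclic.commGroup (α := D.CG ⧸ Y0)
    have h1 : (commutator ↥(CE Ly)) ≤ j.ker := Abelianization.commutator_subset_ker j
    rw [Group.IsPerfect.commutator_eq_top] at h1
    have h2 := h1 (Subgroup.mem_top (⟨(c : G), hc⟩ : CE Ly))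
    exact (QuotientGroup.eq_one_iff _).1 h2
  -- an element fixing two points and moving the third to the fourth
  obtain ⟨g1, hg1⟩ := Ly.exists_map ![pt 0, pt 1, pt 2, pt 3, pt 4] ![pt 0, pt 1, pt 4, pt 2, pt 3]
    (five_injective out_three out_four (by decide +kernel)) (by decide +kernel)
  have g10 : Ly.act g1 (pt 0) = pt 0 := hg1 0
  have g11 : Ly.act g1 (pt 1) = pt 1 := hg1 1
  have g12 : Ly.act g1 (pt 2) = pt 4 := hg1 2
  have g13 : Ly.act g1 (pt 3) = pt 2 := hg1 3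
  have g14 : Ly.act g1 (pt 4) = pt 3 := hg1 4
  obtain ⟨k, hk, hk0, hk1, -, hk3, -⟩ := exists_CE_map Ly out_three out_four (by decide +kernel) out_four out_three
    (by decide +kernel)
  have hg1Y : (g1 : G) ∈ D.CG := D.mem_CG.2 (mul_inv_eq_iff_eq_mul.1 (by rw [hDt, Ly.conj_D, g10, g11]))
  set gN := g1 * k * g1⁻¹ with hgN
  have hinv : ∀ p q, Ly.act g1 p = q → Ly.act g1⁻¹ q = p := fun p q e => by
    rw [← e, ← Ly.act_mul, inv_mul_cancel, Ly.act_one]
  have a0 : Ly.act gN (pt 0) = pt 0 := by rw [hgN, Ly.act_mul, Ly.act_mul, hinv _ _ g10, hk0, g10]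
  have a1 : Ly.act gN (pt 1) = pt 1 := by rw [hgN, Ly.act_mul, Ly.act_mul, hinv _ _ g11, hk1, g11]
  have a2 : Ly.act gN (pt 2) = pt 3 := by rw [hgN, Ly.act_mul, Ly.act_mul, hinv _ _ g13, hk3, g14]
  set g1' : D.CG := ⟨g1, hg1Y⟩
  set k' : D.CG := ⟨k, hCEle hk⟩
  set g : D.CG := g1' * k' * g1'⁻¹ with hgdef
  have hgY : g ∈ Y0 := hY0n.conj_mem k' (hCY0 k' hk) g1'
  have hgG : (g : G) = ((gN : ↥(Subgroup.normalizer (Ly.A : Set G))) : G) := rfl
  have hgd : (g : G) * (D.d : G) * (g : G)⁻¹ = Ly.D (pt 0) (pt 3) ∨ (g : G) * (D.d : G) * (g : G)⁻¹ = Ly.D (pt 1) (pt 3) := by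
    rcases hd with e | e <;> rw [hgG, e, Ly.conj_D]
    · exact Or.inl (by rw [a0, a2])
    · exact Or.inr (by rw [a1, a2])
  -- the witness moves `d` to `d z`
  have huc : (u : G) ∈ D.CG := D.mem_CG.2 (congrArg Subtype.val hu.comm)
  have hud : (u : G) * (D.d : G) * (u : G)⁻¹ = z * (D.d : G) := by
    rcases conj_cases D.hs D.d_mem hu.mem with e | e
    · exact absurd (mul_inv_eq_iff_eq_mul.1 e) hu.ncomm
    · simpa [zH] using congrArg Subtype.val e
  have e03 : Ly.D (pt 1) (pt 3) * Ly.D (pt 0) (pt 1) = Ly.D (pt 0) (pt 3) := by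
    rw [Ly.comm _ (Ly.D_mem _ _) _ (Ly.D_mem _ _), Ly.D_trans]
  have e13 : Ly.D (pt 0) (pt 3) * Ly.D (pt 0) (pt 1) = Ly.D (pt 1) (pt 3) := by
    rw [(D_mul_chain Ly (pt 0) (pt 3) (pt 1)).1, Ly.D_symm]
  have hzd : z * (D.d : G) = Ly.D (pt 1) (pt 3) ∨ z * (D.d : G) = Ly.D (pt 0) (pt 3) := by
    suffices h' : Ly.D (pt 0) (pt 1) * Ly.D (pt 2) (pt 3) * (D.d : G) = Ly.D (pt 1) (pt 3) ∨
        Ly.D (pt 0) (pt 1) * Ly.D (pt 2) (pt 3) * (D.d : G) = Ly.D (pt 0) (pt 3) by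
      rwa [z_eq_three St.ctx] at h'
    rcases hd with e | e <;> rw [e]
    · refine Or.inl ?_
      rw [mul_assoc, Ly.comm _ (Ly.D_mem (pt 2) (pt 3)) _ (Ly.D_mem _ _), ← mul_assoc,
        (D_mul_chain Ly (pt 0) (pt 1) (pt 2)).1, Ly.D_trans]
    · refine Or.inr ?_
      rw [mul_assoc, Ly.comm _ (Ly.D_mem (pt 2) (pt 3)) _ (Ly.D_mem _ _), ← mul_assoc, Ly.D_trans, Ly.D_trans]
  set u' : D.CG := ⟨(u : G), huc⟩
  set s : D.CG := g⁻¹ * u' with hsdef
  have hsY : s ∉ Y0 := fun hs' => huY huc (by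
    have := Y0.mul_mem hgY hs'
    rwa [hsdef, mul_inv_cancel_left] at this)
  have hsd : (s : G) * (D.d : G) * (s : G)⁻¹ = (D.d : G) * (D.t : G) := by
    have e1 : (s : G) * (D.d : G) * (s : G)⁻¹ = (g : G)⁻¹ * ((u : G) * (D.d : G) * (u : G)⁻¹) * (g : G) := by
      simp only [s, u', Subgroup.coe_mul, Subgroup.coe_inv]; group
    have hgt : (g : G)⁻¹ * (D.t : G) * (g : G) = (D.t : G) := by
      rw [mul_assoc, ← D.mem_CG.1 g.2, inv_mul_cancel_left]
    have hcases : z * (D.d : G) = (g : G) * (D.d : G) * (g : G)⁻¹ ∨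
        z * (D.d : G) = (g : G) * (D.d : G) * (g : G)⁻¹ * (D.t : G) := by
      rcases hgd with e | e <;> rcases hzd with e' | e' <;> rw [e, e', hDt]
      exacts [Or.inr e13.symm, Or.inl rfl, Or.inl rfl, Or.inr e03.symm]
    rw [e1, hud]
    rcases hcases with e | e
    · exfalso
      apply hsY
      refine hCY0 s (hcent _ (D.mem_CG.1 s.2) (mul_inv_eq_iff_eq_mul.1 ?_))
      rw [e1, hud, e]; group
    · calc (g : G)⁻¹ * (z * (D.d : G)) * (g : G) = (D.d : G) * ((g : G)⁻¹ * (D.t : G) * (g : G)) := by rw [e]; group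
        _ = _ := by rw [hgt]
  refine ⟨D, Y0, g, s, u, gN, hgG, a0, a1, a2, hu, huY, hDt, hidx, hsY, hsd, hCY0, hcent, hd4, hgY, ?_, ?_, ?_⟩
  · rcases hgd with e | e <;> rw [e] <;> exact Ly.D_mem _ _
  · intro he
    rcases hgd with e | e <;> rcases hd with e' | e' <;> rw [e, e'] at he
    · rcases Ly.D_eq_D h03 he with ⟨-, b⟩ | ⟨a, -⟩
      exacts [h23 b.symm, h02 a]
    · rcases Ly.D_eq_D h03 he with ⟨a, -⟩ | ⟨a, -⟩
      exacts [h01 a, h02 a]
    · rcases Ly.D_eq_D h13 he with ⟨a, -⟩ | ⟨a, -⟩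
      exacts [h01 a.symm, h12 a]
    · rcases Ly.D_eq_D h13 he with ⟨-, b⟩ | ⟨a, -⟩
      exacts [h23 b.symm, h12 a]
  · intro he
    have e1 : Ly.D (pt 0) (pt 2) * Ly.D (pt 0) (pt 1) = Ly.D (pt 1) (pt 2) := by
      rw [(D_mul_chain Ly (pt 0) (pt 2) (pt 1)).1, Ly.D_symm]
    have e2 : Ly.D (pt 1) (pt 2) * Ly.D (pt 0) (pt 1) = Ly.D (pt 0) (pt 2) := by
      rw [Ly.comm _ (Ly.D_mem _ _) _ (Ly.D_mem _ _), Ly.D_trans]
    rcases hgd with e | e <;> rcases hd with e' | e' <;> rw [e, e', hDt] at he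
    · rw [e1] at he
      rcases Ly.D_eq_D h03 he with ⟨a, -⟩ | ⟨a, -⟩
      exacts [h01 a, h02 a]
    · rw [e2] at he
      rcases Ly.D_eq_D h03 he with ⟨-, b⟩ | ⟨a, -⟩
      exacts [h23 b.symm, h02 a]
    · rw [e1] at he
      rcases Ly.D_eq_D h13 he with ⟨-, b⟩ | ⟨a, -⟩
      exacts [h23 b.symm, h12 a]
    · rw [e2] at he
      rcases Ly.D_eq_D h13 he with ⟨a, -⟩ | ⟨a, -⟩
      exacts [h01 a.symm, h12 a]

/-- The kernel with its quotient. -/
theorem exists_core (St : Setup Q M L f h π Ly x pf) (hF : IsOfLargeFischerTypeAt z Q)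
    (hq : IsQuasisimple ↥(CE Ly)) (eX : XE Ly ≃* Cfsg.PSU 6 K4 2) :
    ∃ (D : Pair z Q) (Y0 : Subgroup D.CG) (u : Hz z) (w : ↥(Subgroup.normalizer (Ly.A : Set G))),
      (D.t : G) = Ly.D (pt 0) (pt 1) ∧ (D.d : G) ∈ fourGroup Ly ∧ Y0.index = 2 ∧
      Cfsg.IsQuasisimple ↥Y0 ∧ Cfsg.generalizedFittingSubgroup D.CG = Y0 ∧
      D.Wit u ∧ (∀ hu : (u : G) ∈ D.CG, (⟨(u : G), hu⟩ : D.CG) ∉ Y0) ∧
      (∀ c : D.CG, (c : G) ∈ CE Ly → c ∈ Y0) ∧
      (∀ c : G, c * (D.t : G) = (D.t : G) * c → c * (D.d : G) = (D.d : G) * c → c ∈ CE Ly) ∧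
      Ly.act w (pt 0) = pt 0 ∧ Ly.act w (pt 1) = pt 1 ∧ Ly.act w (pt 2) = pt 3 ∧
      (∃ hw : (w : G) ∈ D.CG, (⟨(w : G), hw⟩ : D.CG) ∈ Y0) ∧
      (∀ y : D.CG, (∀ k ∈ Y0, (y : G) * (k : G) * (y : G)⁻¹ * (k : G)⁻¹ = 1 ∨
          (y : G) * (k : G) * (y : G)⁻¹ * (k : G)⁻¹ = (D.t : G)) → (y : G) = 1 ∨ (y : G) = (D.t : G)) ∧
      ∃ (tK : ↥Y0) (_ : (Subgroup.zpowers tK).Normal), ((tK : D.CG) : G) = (D.t : G) ∧
        Inv22 (↥Y0 ⧸ Subgroup.zpowers tK) ∧ Nonempty (↥Y0 ⧸ Subgroup.zpowers tK ≃* Cfsg.Spor.Fi22) := by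
  classical
  obtain ⟨D, Y0, g, s, u, gN, hgG, w0, w1, w2, hu, huY, hDt, hidx, hsY, hsd, hCY0, hcent, hd4, hgY, hgA, hgne, hgne'⟩ :=
    exists_kernel St hF hq
  haveI hTn : ((Subgroup.zpowers (D.t : G)).subgroupOf D.CG).Normal := by
    refine ⟨fun n hn c => ?_⟩
    have e1 : c * n * c⁻¹ = n := by
      obtain ⟨i, hi⟩ := Subgroup.mem_zpowers_iff.1 (Subgroup.mem_subgroupOf.1 hn)
      refine Subtype.ext ?_
      show (c : G) * n * (c : G)⁻¹ = n
      rw [← hi]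
      exact mul_inv_eq_iff_eq_mul.2 ((show Commute (c : G) (D.t : G) from D.mem_CG.1 c.2).zpow_right i).eq
    rw [e1]; exact hn
  haveI hY0n : Y0.Normal := Subgroup.normal_of_index_eq_two hidx
  set T : Subgroup D.CG := (Subgroup.zpowers (D.t : G)).subgroupOf D.CG with hTdef
  set mk : D.CG →* D.CG ⧸ T := QuotientGroup.mk' T
  have ht1 : (D.t : G) ≠ 1 := fun e => D.t_ne_one (Subtype.ext e)
  have ht2 : (D.t : G) * (D.t : G) = 1 := congrArg Subtype.val D.t_sq
  have hT : ∀ a : D.CG, a ∈ T ↔ (a : G) = 1 ∨ (a : G) = (D.t : G) := by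
    intro a
    rw [hTdef, Subgroup.mem_subgroupOf, Subgroup.mem_zpowers_iff]
    constructor
    · rintro ⟨i, hi⟩
      have h2 : (D.t : G) ^ (2 : ℤ) = 1 := by rw [zpow_ofNat, pow_two, ht2]
      rw [← hi]
      rcases Int.even_or_odd' i with ⟨j, rfl | rfl⟩
      · exact Or.inl (by rw [zpow_mul, h2, one_zpow])
      · exact Or.inr (by rw [zpow_add, zpow_mul, h2, one_zpow, one_mul, zpow_one])
    · rintro (e | e)
      · exact ⟨0, by rw [zpow_zero, e]⟩
      · exact ⟨1, by rw [zpow_one, e]⟩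
  have hmk : ∀ a b : D.CG, mk a = mk b ↔ (a : G) = b ∨ (a : G) = (b : G) * (D.t : G) := by
    intro a b
    show (QuotientGroup.mk a : D.CG ⧸ T) = QuotientGroup.mk b ↔ _
    rw [eq_comm, QuotientGroup.eq, hT, Subgroup.coe_mul, Subgroup.coe_inv, inv_mul_eq_one, inv_mul_eq_iff_eq_mul,
      eq_comm (a := (b : G))]
  -- `t` and `d`
  have ht4 : (D.t : G) ∈ fourGroup Ly :=
    hDt ▸ D_mem_fourGroup Ly (p := pt 0) (q := pt 1) (Or.inl rfl) (Or.inr (Or.inl rfl))
  have hCEle : CE Ly ≤ D.CG := fun c hc => D.mem_CG.2 (Subgroup.mem_centralizer_iff.1 hc _ ht4).symm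
  have hdY : (D.d : G) ∈ D.CG := hCEle (fourGroup_le_CE Ly hd4)
  set dY : D.CG := ⟨_, hdY⟩
  set tY : D.CG := ⟨(D.t : G), D.mem_CG.2 rfl⟩
  have hdY0 : dY ∈ Y0 := hCY0 _ (fourGroup_le_CE Ly hd4)
  have htY0 : tY ∈ Y0 := hCY0 _ (fourGroup_le_CE Ly ht4)
  -- the elements fixing `d` modulo `⟨t⟩`
  have hfixd : ∀ y : D.CG, mk y * mk dY = mk dY * mk y →
      ((y : G) ∈ CE Ly ∧ y ∈ Y0) ∨ (y ∉ Y0 ∧ (y : G) * (D.d : G) * (y : G)⁻¹ = (D.d : G) * (D.t : G)) := by
    intro y hy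
    rw [← map_mul, ← map_mul, hmk] at hy
    simp only [Subgroup.coe_mul] at hy
    replace hy : (y : G) * (D.d : G) = (D.d : G) * (y : G) ∨
        (y : G) * (D.d : G) = (D.d : G) * (y : G) * (D.t : G) := hy
    rcases hy with e | e
    · have := hcent _ (D.mem_CG.1 y.2) e
      exact Or.inl ⟨this, hCY0 _ this⟩
    · refine Or.inr ⟨fun hy0 => hsY ?_, ?_⟩
      · have hsy : ((s⁻¹ * y : D.CG) : G) ∈ CE Ly := by
          refine hcent _ (D.mem_CG.1 (s⁻¹ * y).2) ?_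
          have hst : (s : G)⁻¹ * (D.t : G) * (s : G) = (D.t : G) := by
            rw [mul_assoc, ← D.mem_CG.1 s.2, inv_mul_cancel_left]
          have hsd' : (s : G)⁻¹ * ((D.d : G) * (D.t : G)) * (s : G) = (D.d : G) := by
            rw [← hsd]; group
          show (s : G)⁻¹ * (y : G) * (D.d : G) = (D.d : G) * ((s : G)⁻¹ * (y : G))
          calc (s : G)⁻¹ * (y : G) * (D.d : G) = (s : G)⁻¹ * ((y : G) * (D.d : G)) := by group
            _ = (s : G)⁻¹ * ((D.d : G) * ((y : G) * (D.t : G))) := by rw [e]; group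
            _ = ((s : G)⁻¹ * ((D.d : G) * (D.t : G)) * (s : G)) * ((s : G)⁻¹ * (y : G)) := by
              rw [D.mem_CG.1 y.2]; group
            _ = _ := by rw [hsd']
        have h1 := Y0.mul_mem hy0 (Y0.inv_mem (hCY0 _ hsy))
        rwa [mul_inv_rev, inv_inv, mul_inv_cancel_left] at h1
      · rw [mul_inv_eq_iff_eq_mul, e, mul_assoc _ (D.t : G), ← D.mem_CG.1 y.2, ← mul_assoc]
  -- the kernel modulo `⟨t⟩`
  set N0 : Subgroup (D.CG ⧸ T) := Y0.map mk
  haveI hN0n : N0.Normal := hY0n.map mk (QuotientGroup.mk'_surjective T)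
  have hTY0 : T ≤ Y0 := fun a ha => by
    rcases (hT a).1 ha with e | e
    · rw [show a = 1 from Subtype.ext e]; exact one_mem _
    · rw [show a = tY from Subtype.ext e]; exact htY0
  have hmemN0 : ∀ y : D.CG, mk y ∈ N0 ↔ y ∈ Y0 := by
    refine fun y => ⟨fun ⟨a, ha, e⟩ => ?_, fun hy => ⟨y, hy, rfl⟩⟩
    have : a⁻¹ * y ∈ T := (QuotientGroup.eq).1 e
    have h1 := Y0.mul_mem ha (hTY0 this)
    rwa [mul_inv_cancel_left] at h1
  have hN0idx : N0.index = 2 := by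
    rw [← hidx]
    exact Subgroup.index_map_eq _ (QuotientGroup.mk'_surjective T) (by rw [QuotientGroup.ker_mk']; exact hTY0)
  set dB : N0 := ⟨mk dY, (hmemN0 _).2 hdY0⟩
  have hdB1 : dB ≠ 1 := fun e => by
    rcases (hmk dY 1).1 ((congrArg Subtype.val e).trans (map_one mk).symm) with e' | e'
    · exact D.d_ne (Or.inl (Subtype.ext e'))
    · rw [OneMemClass.coe_one, one_mul] at e'
      exact D.d_ne_t (Or.inl (Subtype.ext e'))
  have hord : orderOf dB = 2 := by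
    haveI : Fact (Nat.Prime 2) := ⟨Nat.prime_two⟩
    refine orderOf_eq_prime (Subtype.ext ?_) hdB1
    show (mk dY) ^ 2 = 1
    rw [← map_pow, show dY ^ 2 = 1 from Subtype.ext (by
      rw [pow_two]; exact (congrArg Subtype.val D.d_sq :)), map_one]
  -- the centraliser of `d`
  let ψ : ↥(CE Ly) →* ↥(Subgroup.centralizer ({dB} : Set N0)) :=
    { toFun := fun c => ⟨⟨mk ⟨c, hCEle c.2⟩, (hmemN0 _).2 (hCY0 _ c.2)⟩,
        Subgroup.mem_centralizer_singleton_iff.2 (Subtype.ext (by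
          show mk ⟨c, _⟩ * mk dY = mk dY * mk ⟨c, _⟩
          rw [← map_mul, ← map_mul]
          exact congrArg mk (Subtype.ext (Subgroup.mem_centralizer_iff.1 c.2 _ hd4).symm)))⟩
      map_one' := rfl
      map_mul' := fun _ _ => rfl }
  have hψ : Function.Surjective ψ := by
    rintro ⟨⟨_, y, hy, rfl⟩, hc⟩
    have hc' := congrArg Subtype.val (Subgroup.mem_centralizer_singleton_iff.1 hc)
    rcases hfixd y hc' with h1 | h1
    · exact ⟨⟨y, h1.1⟩, rfl⟩
    · exact absurd hy h1.1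
  haveI hnd : ((Subgroup.zpowers dB).subgroupOf (Subgroup.centralizer ({dB} : Set N0))).Normal := by
    refine ⟨fun n hn c => ?_⟩
    have e : c * n * c⁻¹ = n := by
      obtain ⟨i, hi⟩ := Subgroup.mem_zpowers_iff.1 (Subgroup.mem_subgroupOf.1 hn)
      refine Subtype.ext ?_
      show (c : N0) * n * (c : N0)⁻¹ = n
      rw [← hi]
      exact mul_inv_eq_iff_eq_mul.2
        ((show Commute (c : N0) dB from Subgroup.mem_centralizer_singleton_iff.1 c.2).zpow_right i).eq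
    rw [e]; exact hn
  let φ : ↥(CE Ly) →* _ :=
    (QuotientGroup.mk' ((Subgroup.zpowers dB).subgroupOf (Subgroup.centralizer ({dB} : Set N0)))).comp ψ
  have hφker : φ.ker = NE Ly := by
    ext c
    rw [MonoidHom.mem_ker]
    show (QuotientGroup.mk (ψ c) : _ ⧸ (Subgroup.zpowers dB).subgroupOf _) = 1 ↔ (c : G) ∈ fourGroup Ly
    rw [QuotientGroup.eq_one_iff, Subgroup.mem_subgroupOf, Subgroup.mem_zpowers_iff]
    have hmem : ∀ a : D.CG, (a : G) = 1 ∨ (a : G) = (D.t : G) ∨ (a : G) = (D.d : G) ∨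
        (a : G) = (D.d : G) * (D.t : G) → (a : G) ∈ fourGroup Ly := by
      rintro a (e | e | e | e) <;> rw [e]
      exacts [one_mem _, ht4, hd4, mul_mem hd4 ht4]
    constructor
    · rintro ⟨i, hi⟩
      have hi' : mk ⟨c, hCEle c.2⟩ = mk (dY ^ i) := by
        rw [map_zpow]; exact (congrArg (fun w : N0 => (w : D.CG ⧸ T)) hi).symm
      have hdd : (D.d : G) ^ (2 : ℤ) = 1 := by
        rw [zpow_ofNat, pow_two]; exact congrArg Subtype.val D.d_sq
      have hc := (hmk _ _).1 hi'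
      simp only [Subgroup.coe_zpow] at hc
      refine hmem ⟨c, hCEle c.2⟩ ?_
      rcases Int.even_or_odd' i with ⟨j, rfl | rfl⟩
      · simp only [zpow_mul, show ((dY : D.CG) : G) = (D.d : G) from rfl, hdd, one_zpow, one_mul] at hc
        exact hc.elim Or.inl (fun e => Or.inr (Or.inl e))
      · simp only [zpow_add, zpow_mul, show ((dY : D.CG) : G) = (D.d : G) from rfl, hdd, one_zpow, one_mul,
          zpow_one] at hc
        exact hc.elim (fun e => Or.inr (Or.inr (Or.inl e))) (fun e => Or.inr (Or.inr (Or.inr e)))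
    · intro hc
      have ht0 : Ly.D (pt 0) (pt 1) = (D.t : G) := hDt.symm
      have hone : ∀ e ∈ fourGroup Ly, e = 1 ∨ e = (D.t : G) ∨ e = (D.d : G) ∨ e = (D.d : G) * (D.t : G) := by
        have h02 : Ly.D (pt 0) (pt 2) * Ly.D (pt 0) (pt 1) = Ly.D (pt 1) (pt 2) := by
          rw [(D_mul_chain Ly (pt 0) (pt 2) (pt 1)).1, Ly.D_symm]
        have h12 : Ly.D (pt 1) (pt 2) * Ly.D (pt 0) (pt 1) = Ly.D (pt 0) (pt 2) := by
          rw [Ly.comm _ (Ly.D_mem _ _) _ (Ly.D_mem _ _), Ly.D_trans]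
        rcases hd4 with e1 | e1 | e1 | e1
        · exact absurd (Subtype.ext e1) (fun e => D.d_ne (Or.inl e))
        · exact absurd (Subtype.ext (e1.trans hDt.symm)) (fun e => D.d_ne_t (Or.inl e))
        all_goals
          rintro e (rfl | rfl | rfl | rfl) <;> rw [e1, ← ht0] <;> simp [h02, h12]
      rcases hone _ hc with e | e | e | e
      · refine ⟨0, ?_⟩
        rw [zpow_zero]
        exact Subtype.ext (((hmk ⟨c, hCEle c.2⟩ 1).2 (Or.inl e)).trans (map_one mk)).symm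
      · refine ⟨0, ?_⟩
        rw [zpow_zero]
        exact Subtype.ext (((hmk ⟨c, hCEle c.2⟩ 1).2 (Or.inr (by simpa using e))).trans (map_one mk)).symm
      · refine ⟨1, ?_⟩
        rw [zpow_one]
        exact Subtype.ext ((hmk ⟨c, hCEle c.2⟩ dY).2 (Or.inl e)).symm
      · refine ⟨1, ?_⟩
        rw [zpow_one]
        exact Subtype.ext ((hmk ⟨c, hCEle c.2⟩ dY).2 (Or.inr e)).symm
  have hφ : Function.Surjective φ := (QuotientGroup.mk'_surjective _).comp hψ
  let e := ((QuotientGroup.quotientMulEquivOfEq hφker).symm.trans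
    (QuotientGroup.quotientKerEquivOfSurjective φ hφ)).symm.trans eX
  haveI : Nontrivial ↥(Subgroup.centralizer ({dB} : Set N0)) :=
    ⟨⟨⟨dB, Subgroup.mem_centralizer_singleton_iff.2 rfl⟩, 1, fun e => hdB1 (congrArg Subtype.val e)⟩⟩
  have hqd := CfsgLib.Cores.isQuasisimple_of_surjective hq hψ
  have hnwc : ∃ w : N0, w * dB * w⁻¹ ∈ Subgroup.centralizer ({dB} : Set N0) ∧ w * dB * w⁻¹ ≠ dB := by
    refine ⟨⟨mk g, (hmemN0 _).2 hgY⟩, Subgroup.mem_centralizer_singleton_iff.2 (Subtype.ext ?_), fun e => ?_⟩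
    · show mk g * mk dY * (mk g)⁻¹ * mk dY = mk dY * (mk g * mk dY * (mk g)⁻¹)
      rw [← map_inv, ← map_mul, ← map_mul, ← map_mul, ← map_mul]
      exact congrArg mk (Subtype.ext (Ly.comm _ hgA _ (fourGroup_le Ly hd4)))
    · have e' : mk (g * dY * g⁻¹) = mk dY := by
        rw [map_mul, map_mul, map_inv]; exact congrArg Subtype.val e
      rcases (hmk _ _).1 e' with e2 | e2
      · exact hgne e2
      · exact hgne' e2
  obtain ⟨-, -, -, eF, -⟩ := CfsgLib.Fischer.Recognition.main hord hqd K4.card_fintype e hnwc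
  haveI hsimF := AutEnd.isSimpleGroup_fi22
  haveI hsimN : IsSimpleGroup N0 := eF.isSimpleGroup
  have hnaN : ¬ IsMulCommutative N0 := fun hc => AutEnd.not_isMulCommutative_fi22
    ⟨⟨fun a b => eF.symm.injective (by rw [map_mul, map_mul]; exact hc.is_comm.comm _ _)⟩⟩
  -- nothing centralises the kernel
  have hcen : ∀ w : D.CG ⧸ T, (∀ n ∈ N0, w * n = n * w) → w = 1 := by
    intro w hw
    obtain ⟨y, rfl⟩ := QuotientGroup.mk'_surjective T w
    by_cases hy : y ∈ Y0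
    · have hbot : Subgroup.center N0 = ⊥ :=
        ((inferInstance : (Subgroup.center N0).Normal).eq_bot_or_eq_top).resolve_right fun e1 =>
          hnaN ⟨⟨fun a b => (Subgroup.mem_center_iff.1 (e1 ▸ Subgroup.mem_top b) a)⟩⟩
      have hmem : (⟨mk y, (hmemN0 _).2 hy⟩ : N0) ∈ Subgroup.center N0 :=
        Subgroup.mem_center_iff.2 fun n => Subtype.ext (hw n n.2).symm
      rw [hbot, Subgroup.mem_bot] at hmem
      exact congrArg Subtype.val hmem
    · exfalso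
      rcases hfixd y (hw _ dB.2) with h1 | ⟨-, hyd⟩
      · exact hy h1.2
      -- `mk y` is central
      have hcz : ∀ a : D.CG, mk y * mk a = mk a * mk y := by
        intro a
        by_cases ha : a ∈ Y0
        · exact hw _ ((hmemN0 _).2 ha)
        · have h1 : y⁻¹ * a ∈ Y0 := by
            rw [Subgroup.mul_mem_iff_of_index_two hidx, inv_mem_iff]
            exact ⟨fun h => absurd h hy, fun h => absurd h ha⟩
          have h2 := hw _ ((hmemN0 _).2 h1)
          rw [map_mul, map_inv, mul_inv_cancel_left, mul_assoc] at h2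
          calc mk y * mk a = mk y * ((mk y)⁻¹ * (mk a * mk y)) := by rw [← h2]
            _ = _ := by rw [mul_inv_cancel_left]
      have hzCE : z ∈ CE Ly := z_mem_CE St.ctx
      have hyz : (y : G) * z = z * (y : G) := by
        rcases (hmk _ _).1 (show mk (y * ⟨z, hCEle hzCE⟩) = mk (⟨z, hCEle hzCE⟩ * y) by
          rw [map_mul, map_mul]; exact hcz _) with e1 | e1
        · exact e1
        · exfalso
          have hq1 : (y : G) * z * (y : G)⁻¹ = z * (D.t : G) := by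
            rw [show (y : G) * z = z * (y : G) * (D.t : G) from e1, mul_assoc z, D.mem_CG.1 y.2, ← mul_assoc,
              mul_inv_cancel_right]
          have hnz : ¬ IsConj z ((zH z * D.t : Hz z) : G) :=
            D.not_conj_near D.t_mem D.t_ne_one (by rw [hDt]; exact Ly.D_not_conj pt_small_ne.1) (Or.inr rfl)
          exact hnz (isConj_iff.2 ⟨(y : G), by rw [hq1]; simp [zH]⟩)
      set yH : Hz z := ⟨(y : G), Subgroup.mem_centralizer_singleton_iff.2 hyz⟩
      refine D.no_central (y := yH) (Subtype.ext (D.mem_CG.1 y.2)) (Subtype.ext hyd) fun q hq hqt => ?_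
      rcases (hmk _ _).1 (show mk (y * ⟨(q : G), D.mem_CG.2 (congrArg Subtype.val hqt)⟩ * y⁻¹) =
          mk ⟨(q : G), D.mem_CG.2 (congrArg Subtype.val hqt)⟩ by
        rw [map_mul, map_mul, map_inv, hcz, mul_inv_cancel_right]) with e1 | e1
      · exact Or.inl (Subtype.ext e1)
      · refine Or.inr (Subtype.ext ?_)
        show (y : G) * (q : G) * (y : G)⁻¹ = (D.t : G) * (q : G)
        exact e1.trans (congrArg Subtype.val hqt)
  -- the generalised Fitting subgroup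
  haveI hT0n : ((Subgroup.zpowers tY).subgroupOf Y0).Normal := ⟨fun n hn c => by
    have e1 : c * n * c⁻¹ = n := by
      obtain ⟨i, hi⟩ := Subgroup.mem_zpowers_iff.1 (Subgroup.mem_subgroupOf.1 hn)
      refine Subtype.ext ?_
      show (c : D.CG) * n * (c : D.CG)⁻¹ = n
      rw [← hi]
      exact mul_inv_eq_iff_eq_mul.2
        ((show Commute (c : D.CG) tY from Subtype.ext (D.mem_CG.1 (c : D.CG).2)).zpow_right i).eq
    rw [e1]; exact hn⟩
  have hzt : Subgroup.zpowers tY = T := by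
    refine le_antisymm (Subgroup.zpowers_le.2 ((hT _).2 (Or.inr rfl))) fun a ha => ?_
    rcases (hT a).1 ha with e1 | e1
    · rw [show a = 1 from Subtype.ext e1]; exact one_mem _
    · rw [show a = tY from Subtype.ext e1]; exact Subgroup.mem_zpowers _
  let ρ : Y0 →* N0 := mk.subgroupMap Y0
  have hρ : Function.Surjective ρ := mk.subgroupMap_surjective Y0
  have hρk : ρ.ker = (Subgroup.zpowers tY).subgroupOf Y0 := by
    ext a
    rw [MonoidHom.mem_ker, Subgroup.mem_subgroupOf, hzt, Subtype.ext_iff]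
    exact QuotientGroup.eq_one_iff (a : D.CG)
  let e0 := (QuotientGroup.quotientMulEquivOfEq hρk).symm.trans (QuotientGroup.quotientKerEquivOfSurjective ρ hρ)
  have htcomm : tY ∈ ⁅Y0, Y0⁆ := by
    haveI := hq.1
    have h1 : ((commutator ↥(CE Ly)).map (Subgroup.inclusion hCEle)) ≤ ⁅Y0, Y0⁆ := by
      rw [commutator_def, Subgroup.map_commutator]
      refine Subgroup.commutator_mono ?_ ?_ <;>
        (rintro _ ⟨a, -, rfl⟩; exact hCY0 _ a.2)
    refine h1 ⟨⟨(D.t : G), fourGroup_le_CE Ly ht4⟩, ?_, rfl⟩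
    rw [Group.IsPerfect.commutator_eq_top]
    exact Subgroup.mem_top _
  obtain ⟨hqs, hfs⟩ := FStar.quasisimple_and_fstar tY Y0 (fun a => Subtype.ext (D.mem_CG.1 a.2))
    (Subtype.ext ht2) htcomm e0.isSimpleGroup
    (fun hc => hnaN ⟨⟨fun a b => e0.symm.injective (by rw [map_mul, map_mul]; exact hc.is_comm.comm _ _)⟩⟩)
    (fun y hy => by
      rw [hzt, ← QuotientGroup.eq_one_iff]
      refine hcen _ fun n hn => ?_
      obtain ⟨a, ha, rfl⟩ := hn
      have h1 : mk (y * a * y⁻¹ * a⁻¹) = 1 := (QuotientGroup.eq_one_iff _).2 (hzt ▸ hy a ha)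
      rw [map_mul, map_mul, map_mul, map_inv, map_inv, mul_inv_eq_one, mul_inv_eq_iff_eq_mul] at h1
      exact h1)
  have hin : Inv22 N0 := ⟨dB, hord, hqd, ⟨K4, inferInstance, inferInstance, K4.card_fintype, hnd, ⟨e⟩⟩, hnwc⟩
  have hzK : (Subgroup.zpowers tY).subgroupOf Y0 = Subgroup.zpowers (⟨tY, htY0⟩ : Y0) := by
    ext a
    rw [Subgroup.mem_subgroupOf, Subgroup.mem_zpowers_iff, Subgroup.mem_zpowers_iff]
    exact exists_congr fun i => ⟨fun h => Subtype.ext (by rw [Subgroup.coe_zpow]; exact h),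
      fun h => by rw [← h, Subgroup.coe_zpow]⟩
  haveI hKn : (Subgroup.zpowers (⟨tY, htY0⟩ : Y0)).Normal := hzK ▸ hT0n
  let e1 := (QuotientGroup.quotientMulEquivOfEq hzK).symm.trans e0
  refine ⟨D, Y0, u, gN, hDt, hd4, hidx, hqs, hfs, hu, huY, hCY0, hcent, w0, w1, w2,
    ⟨hgG ▸ g.2, by convert hgY using 1; exact Subtype.ext hgG.symm⟩, fun y hy => ?_,
    ⟨tY, htY0⟩, hKn, rfl, hin.map e1.symm, ⟨e1.trans eF⟩⟩
  refine (hT y).1 ?_
  rw [← QuotientGroup.eq_one_iff]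
  refine hcen _ fun n hn => ?_
  obtain ⟨a, ha, rfl⟩ := hn
  have h1 : mk (y * a * y⁻¹ * a⁻¹) = 1 := (QuotientGroup.eq_one_iff _).2 ((hT _).2 (hy a ha))
  rw [map_mul, map_mul, map_mul, map_inv, map_inv, mul_inv_eq_one, mul_inv_eq_iff_eq_mul] at h1
  exact h1

end CfsgLib.LargeFischer.TypeTwo.Extension
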