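import Cfsg.Agent.Lib.LargeFischer.TypeTwo.Extension.Main
import Cfsg.Agent.Lib.LargeFischer.Base.Final
import Cfsg.Agent.Lib.LargeFischer.Base.Normal

/-!
Large Fischer type inside a group as a subgroup of index two: existence of the outer transposition.
-/

set_option autoImplicit false
set_option linter.unusedSectionVars false
set_option linter.style.haveILetI false

namespace CfsgLib.LargeFischer.TypeTwo.Extension

open Cfsg CfsgLib.FischerLarge CfsgLib.FischerLarge.U62 CfsgLib.Golay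

variable {X : Type*} [Group X] [Finite X] {G₀ : Subgroup X} {z : ↥G₀}
  {Q : Subgroup ↥(Subgroup.centralizer ({z} : Set ↥G₀))} [Q.Normal]

/-- The data of the outer involution. -/
theorem exists_outer_data (hidx : G₀.index = 2) (hF : Cfsg.IsOfLargeFischerTypeAt z Q)
    (hcentral : ∃ P : Sylow 2 ↥G₀, z ∈ (P : Subgroup ↥G₀) ∧ ∀ x ∈ (P : Subgroup ↥G₀), Commute x z)
    (hFX : (Cfsg.generalizedFittingSubgroup ↥(Subgroup.centralizer ({(z : X)} : Set X))).map (Subgroup.subtype _) =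
      ((Q.map (Subgroup.subtype _)).map G₀.subtype)) :
    ∃ (d : X) (t : ↥G₀) (Y0 : Subgroup (Subgroup.centralizer ({t} : Set ↥G₀))) (tK : ↥Y0)
      (_ : (Subgroup.zpowers tK).Normal) (m : ↥G₀),
      orderOf d = 2 ∧ d ∉ G₀ ∧ Commute d (z : X) ∧ t * t = 1 ∧ t ≠ 1 ∧ Cfsg.IsQuasisimple ↥Y0 ∧
      (∀ y : Subgroup.centralizer ({t} : Set ↥G₀), d * ((y : ↥G₀) : X) = ((y : ↥G₀) : X) * d ↔ y ∈ Y0) ∧
      ((tK : Subgroup.centralizer ({t} : Set ↥G₀)) : ↥G₀) = t ∧ Inv22 (↥Y0 ⧸ Subgroup.zpowers tK) ∧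
      (m : X) * d = d * (m : X) ∧ m * t * m⁻¹ * t = t * (m * t * m⁻¹) ∧ m * t * m⁻¹ ≠ t := by
  haveI hG0n : G₀.Normal := Subgroup.normal_of_index_eq_two hidx
  obtain ⟨C, hc⟩ := CfsgLib.LargeFischer.Base.exists_normal_coords hF
  obtain ⟨Ly0, -⟩ := CfsgLib.LargeFischer.Base.exists_layer_baseA hF.1 hc
  obtain ⟨P, _, _, E, S, M, V, _, _, _, L, f, h, π, Ly, x, pf, hP, St⟩ := exists_setup hF Ly0
  obtain ⟨⟨φ₀, K₀⟩, hst⟩ := St.exists_coord hP hF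
  obtain ⟨φ, Kc, hu0, hu1⟩ := St.exists_std K₀
  obtain ⟨eX⟩ := St.nonempty_equiv Kc hu0 hu1 hst
  obtain ⟨D, Y0, u, w, hDt, hd4, hY, hqs, hfs, hu, huY, hCY0, hcent, w0, w1, w2, ⟨hwC, hwY⟩, hcen, tK, hTn, htK, hin,
    ⟨e⟩⟩ := exists_core St hF (St.isQuasisimple eX) eX
  haveI := hTn
  have hnt : ¬ IsConj z (D.t : ↥G₀) := by rw [hDt]; exact Ly.D_not_conj pt_small_ne.1
  have ht2 : (D.t : ↥G₀) * (D.t : ↥G₀) = 1 := congrArg Subtype.val D.t_sq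
  have ht1 : (D.t : ↥G₀) ≠ 1 := fun h => D.t_ne_one (Subtype.ext h)
  haveI : Fact (Nat.Prime 2) := ⟨Nat.prime_two⟩
  obtain ⟨x1, hx1, hx1z, hx1t⟩ := exists_outer_fix hidx hF hcentral hFX (D.t : ↥G₀) ⟨D.t.2, D.t_mem⟩
    (orderOf_eq_prime (by rw [pow_two]; exact ht2) ht1) hnt
  have hQ : ∀ x : X, x * (z : X) = (z : X) * x → ∀ q ∈ Q, ∃ q' ∈ Q, x * inX q * x⁻¹ = inX q' := by
    intro x hx q hq
    obtain ⟨a, ⟨b, hb, hba⟩, ha⟩ := QX_conj hFX hx (q := inX q) ⟨_, ⟨q, hq, rfl⟩, rfl⟩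
    exact ⟨b, hb, by rw [← ha, ← hba]; rfl⟩
  have hQc : ∀ x : X, x * (z : X) = (z : X) * x → (∀ q ∈ Q, x * inX q = inX q * x) → x ∈ G₀ := by
    intro x hx hq
    refine mem_of_centralizes hF hFX hx ?_
    rintro _ ⟨_, ⟨b, hb, rfl⟩, rfl⟩
    exact hq b hb
  obtain ⟨d, hd, hdd, hdz, hiff⟩ := exists_fix D hidx hQ hQc hx1 hx1z hx1t hY hqs hfs hu huY
    (fun c hc' => hCY0 c (hcent _ (D.mem_CG.1 c.2) hc')) hcen tK htK e
  -- the element moving `t`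
  let δ : MulAut ↥G₀ := MulAut.conjNormal d
  have hδ : ∀ g : ↥G₀, (δ g = g ↔ d * (g : X) = (g : X) * d) := fun g => by
    rw [Subtype.ext_iff, MulAut.conjNormal_apply, mul_inv_eq_iff_eq_mul]
  have hCEle : ∀ c ∈ CE Ly, c ∈ D.CG := fun c hc' => D.mem_CG.2 (Subgroup.mem_centralizer_iff.1 hc' _
    (hDt ▸ D_mem_fourGroup Ly (p := pt 0) (q := pt 1) (Or.inl rfl) (Or.inr (Or.inl rfl)))).symm
  have hfix : ∀ c ∈ CE Ly, δ c = c := fun c hc' =>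
    (hδ c).2 ((hiff ⟨c, hCEle c hc'⟩).2 (hCY0 _ hc'))
  obtain ⟨m, hm03, hm⟩ := exists_nonweak (δ := δ) St hfix w w0 w1 w2 ((hδ _).2 ((hiff ⟨_, hwC⟩).2 hwY))
  have hmc : m * (D.t : ↥G₀) * m⁻¹ * (D.t : ↥G₀) = (D.t : ↥G₀) * (m * (D.t : ↥G₀) * m⁻¹) := by
    rw [hDt, hm03]; exact Ly.comm _ (Ly.D_mem _ _) _ (Ly.D_mem _ _)
  have hmne : m * (D.t : ↥G₀) * m⁻¹ ≠ (D.t : ↥G₀) := by
    rw [hDt, hm03]
    intro h'
    rcases Ly.D_eq_D pt_small_ne.2.2.1 h' with ⟨-, b⟩ | ⟨a, -⟩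
    exacts [pt_small_ne.2.2.2.2.1 b.symm, pt_small_ne.1 a]
  have htX : (((D.t : ↥G₀)) : X) * ((D.t : ↥G₀) : X) = 1 := congrArg Subtype.val ht2
  have hdt : d * ((D.t : ↥G₀) : X) = ((D.t : ↥G₀) : X) * d := by
    have := (hiff (tK : D.CG)).2 tK.2
    rwa [htK] at this
  have horder : ∀ a : X, a * a = 1 → a ∉ G₀ → orderOf a = 2 := fun a ha hn =>
    orderOf_eq_prime (by rw [pow_two, ha]) fun e1 => hn (e1 ▸ one_mem _)
  rcases hm with hm | hm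
  · exact ⟨d, (D.t : ↥G₀), Y0, tK, hTn, m, horder d hdd hd, hd, hdz, ht2, ht1, hqs, hiff, htK, hin,
      ((hδ m).1 hm).symm, hmc, hmne⟩
  · set tX : X := ((D.t : ↥G₀) : X)
    have hdtn : d * tX ∉ G₀ := fun h' => hd ((Subgroup.mul_mem_cancel_right _ (D.t : ↥G₀).2).1 h')
    have hdt2 : d * tX * (d * tX) = 1 := by
      calc d * tX * (d * tX) = d * (tX * d) * tX := by group
        _ = d * d * (tX * tX) := by rw [← hdt]; group
        _ = 1 := by rw [hdd, htX, mul_one]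
    have hiff' : ∀ y : D.CG, d * tX * ((y : ↥G₀) : X) = ((y : ↥G₀) : X) * (d * tX) ↔ y ∈ Y0 := by
      intro y
      rw [← hiff y]
      have hy : tX * ((y : ↥G₀) : X) = ((y : ↥G₀) : X) * tX := (congrArg Subtype.val (D.mem_CG.1 y.2)).symm
      rw [mul_assoc, hy, ← mul_assoc, ← mul_assoc, mul_left_inj]
    have hdtz : Commute (d * tX) (z : X) :=
      (show Commute d (z : X) from hdz).mul_left (congrArg (fun q : Hz z => inX q) (zH_comm D.t))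
    refine ⟨d * tX, (D.t : ↥G₀), Y0, tK, hTn, m, horder _ hdt2 hdtn, hdtn, hdtz, ht2, ht1, hqs, hiff', htK, hin,
      ?_, hmc, hmne⟩
    have hm' : d * (tX * (m : X) * tX) * d⁻¹ = (m : X) := by
      have h1 := congrArg Subtype.val hm
      rw [MulAut.conjNormal_apply, Subgroup.coe_mul, Subgroup.coe_mul, ← hDt] at h1
      exact h1
    calc (m : X) * (d * tX) = d * (tX * (m : X) * tX) * d⁻¹ * (d * tX) := by rw [hm']
      _ = d * tX * (m : X) * (tX * tX) := by group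
      _ = d * tX * (m : X) := by rw [htX, mul_one]

end CfsgLib.LargeFischer.TypeTwo.Extension
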