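import Cfsg.Agent.Lib.FischerLarge.U62.InstFinal

/-!
Large Fischer type, extensions: an automorphism fixing the centraliser of the four-group fixes, up to the involution
of the first duad, an element moving that involution to the duad of `0` and `3`.
-/

set_option autoImplicit false
set_option linter.style.haveILetI false
set_option linter.unusedSectionVars false
set_option linter.unusedVariables false

namespace CfsgLib.LargeFischer.TypeTwo.Extension

open scoped Classical symmDiff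
open Cfsg CfsgLib.Golay CfsgLib.FischerLarge CfsgLib.FischerLarge.U62

universe u

variable {G : Type u} [Group G] [Finite G] {z : G} {P : Type} [Group P] [Finite P] {Q M : Subgroup (Cz z)}
  [hQn : Q.Normal] {V : Type u} [AddCommGroup V] [Module K4 V] [Finite V] {L : Subgroup (V ≃ₗ[K4] V)} {f : L →* P}
  {h : V → V → K4} {π : Cz z → V} {Ly : Layer z (QG' Q)} {x : Cz z} {pf : GolayPt}

/-- A normalising element centralising `A` fixes all points. -/
theorem act_eq_of_comm {g : ↥(Subgroup.normalizer (Ly.A : Set G))} (hg : ∀ a ∈ Ly.A, (g : G) * a = a * (g : G))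
    (p : GolayPt) : Ly.act g p = p := by
  by_contra hne
  obtain ⟨r, hr1, hr2⟩ : ∃ r, r ≠ p ∧ r ≠ Ly.act g p := by
    obtain ⟨r, hr⟩ := Finset.exists_mem_notMem_of_card_lt_card
      (s := ({p, Ly.act g p} : Finset GolayPt)) (t := Finset.univ)
      (lt_of_le_of_lt Finset.card_le_two (by rw [Finset.card_univ]; decide))
    simp only [Finset.mem_insert, Finset.mem_singleton, not_or] at hr
    exact ⟨r, hr.2⟩
  have h := Ly.conj_D g p r
  rw [hg _ (Ly.D_mem p r), mul_inv_cancel_right] at h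
  rcases Ly.D_eq_D hr1.symm h with ⟨e, -⟩ | ⟨-, e2⟩
  · exact hne e.symm
  · exact hr2 e2

/-- An element of `A` is the element of at most four points. -/
theorem exists_small_rep {a : G} (ha : a ∈ Ly.A) :
    ∃ S : Finset GolayPt, Even S.card ∧ S.card ≤ 4 ∧ Ly.ev S = a := by
  obtain ⟨S, hS, he⟩ := Ly.ev_surj a ha
  induction hn : S.card using Nat.strong_induction_on generalizing S with
  | _ n ih =>
    subst hn
    by_cases h5 : 5 ≤ S.card
    · obtain ⟨F, hF, hF5⟩ := Finset.exists_subset_card_eq h5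
      obtain ⟨o, ⟨ho, hFo⟩, -⟩ := exists_octad_above hF5
      have hoe : Even o.card := by rw [card_eq_of_mem_octads ho]; decide
      have hlt : (S ∆ o).card < S.card := by
        have h1 := card_symmDiff S o
        have h2 := Finset.card_le_card (Finset.subset_inter hF hFo)
        rw [card_eq_of_mem_octads ho] at h1
        omega
      exact ih _ hlt (S ∆ o) (even_symmDiff hS hoe)
        (by rw [Ly.ev_symm S o hS hoe, (Ly.ev_code o hoe).2 ho.1, mul_one, he]) rfl
    · exact ⟨S, hS, by omega, he⟩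

/-- A point outside the first three and outside a small set. -/
theorem exists_out_notMem (T : Finset GolayPt) (hT : T.card ≤ 6) : ∃ q, Out q ∧ q ∉ T := by
  have h1 := Finset.card_union_le ({pt 0, pt 1, pt 2} : Finset GolayPt) T
  have h2 : ({pt 0, pt 1, pt 2} : Finset GolayPt).card ≤ 3 := Finset.card_le_three
  have h3 : (Finset.univ : Finset GolayPt).card = 24 := by rw [Finset.card_univ]; decide
  obtain ⟨q, -, hq⟩ := Finset.exists_mem_notMem_of_card_lt_card (s := ({pt 0, pt 1, pt 2} : Finset GolayPt) ∪ T)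
    (t := Finset.univ) (by omega)
  simp only [Finset.mem_union, Finset.mem_insert, Finset.mem_singleton, not_or] at hq
  exact ⟨q, ⟨hq.1.1, hq.1.2.1, hq.1.2.2⟩, hq.2⟩

/-- The elements of `A` fixed by the stabiliser of the three points lie in the four-group. -/
theorem mem_fourGroup_of_comm {a : G} (ha : a ∈ Ly.A)
    (hc : ∀ k : ↥(Subgroup.normalizer (Ly.A : Set G)), Ly.act k (pt 0) = pt 0 → Ly.act k (pt 1) = pt 1 →
      Ly.act k (pt 2) = pt 2 → a * (k : G) = (k : G) * a) : a ∈ fourGroup Ly := by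
  obtain ⟨S, hS, hS4, rfl⟩ := exists_small_rep ha
  by_cases hall : ∀ p ∈ S, p = pt 0 ∨ p = pt 1 ∨ p = pt 2
  · -- the set lies in the three points
    rcases (show S.card = 0 ∨ S.card = 2 ∨ S.card = 4 by rw [Nat.even_iff] at hS; omega) with h | h | h
    · rw [Finset.card_eq_zero.1 h, Ly.ev_empty]; exact one_mem _
    · obtain ⟨p, q, hpq, rfl⟩ := Finset.card_eq_two.1 h
      rw [← Layer.pair_eq hpq]
      exact D_mem_fourGroup Ly (hall p (by simp)) (hall q (by simp))
    · exfalso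
      have hsub : S ⊆ ({pt 0, pt 1, pt 2} : Finset GolayPt) := fun p hp => by simpa using hall p hp
      have h1 := Finset.card_le_card hsub
      have h2 : ({pt 0, pt 1, pt 2} : Finset GolayPt).card ≤ 3 := Finset.card_le_three
      omega
  · -- a point outside can be moved off the set
    exfalso
    push Not at hall
    obtain ⟨p, hpS, hp⟩ := hall
    have hp' : Out p := hp
    obtain ⟨r, hrS, hrp⟩ : ∃ r ∈ S, r ≠ p := by
      refine Finset.exists_mem_ne ?_ p
      have := Finset.card_pos.2 ⟨p, hpS⟩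
      rw [Nat.even_iff] at hS
      omega
    obtain ⟨q', hq', hq'S⟩ := exists_out_notMem S (by omega)
    obtain ⟨q, hq, hqp, hqq', hqr⟩ : ∃ q, Out q ∧ q ≠ p ∧ q ≠ q' ∧ (Out r → q = r) := by
      by_cases hr : Out r
      · exact ⟨r, hr, hrp, fun e => hq'S (e ▸ hrS), fun _ => rfl⟩
      · obtain ⟨q, hq, hqT⟩ := exists_out_notMem {p, q'} (le_trans Finset.card_le_two (by norm_num))
        simp only [Finset.mem_insert, Finset.mem_singleton, not_or] at hqT
        exact ⟨q, hq, hqT.1, hqT.2, fun h' => absurd h' hr⟩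
    obtain ⟨k, -, h0, h1, h2, hkp, hkq⟩ := exists_CE_map Ly hp' hq hqp.symm hq' hq hqq'.symm
    set σ : Equiv.Perm GolayPt := ((Ly.ρ k : ↥M24) : Equiv.Perm GolayPt) with hσ
    have hkr : σ r = r := by
      by_cases hr : Out r
      · obtain rfl := hqr hr
        exact hkq
      · simp only [CfsgLib.FischerLarge.U62.Out] at hr
        by_cases e0 : r = pt 0
        · subst e0; exact h0
        by_cases e1 : r = pt 1
        · subst e1; exact h1
        by_cases e2 : r = pt 2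
        · subst e2; exact h2
        exact absurd ⟨e0, e1, e2⟩ hr
    have hcard : (S.image σ).card = S.card := Finset.card_image_of_injective _ σ.injective
    have hev : Ly.ev (S.image σ) = Ly.ev S := by
      rw [hσ, Ly.ρ_conj k S hS, ← hc k h0 h1 h2, mul_inv_cancel_right]
    have hcode := (Ly.eq_iff (by rw [hcard]; exact hS) hS).1 hev
    have hinter : 0 < (S.image σ ∩ S).card :=
      Finset.card_pos.2 ⟨r, Finset.mem_inter.2 ⟨Finset.mem_image.2 ⟨r, hrS, hkr⟩, hrS⟩⟩
    have hsd := card_symmDiff (S.image σ) S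
    have hempty : S.image σ = S := symmDiff_eq_bot.1
      ((Layer.small_code hcode (by omega)).trans Finset.bot_eq_empty.symm)
    exact hq'S (hempty ▸ Finset.mem_image.2 ⟨p, hpS, hkp⟩)

/-- The element moving the involution of the first duad, fixed up to that involution. -/
theorem exists_nonweak {δ : MulAut G} (St : Setup Q M L f h π Ly x pf) (hfix : ∀ c ∈ CE Ly, δ c = c)
    (w : ↥(Subgroup.normalizer (Ly.A : Set G))) (hw0 : Ly.act w (pt 0) = pt 0) (hw1 : Ly.act w (pt 1) = pt 1)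
    (hw2 : Ly.act w (pt 2) = pt 3) (hw : δ w = w) :
    ∃ m : G, m * Ly.D (pt 0) (pt 1) * m⁻¹ = Ly.D (pt 0) (pt 3) ∧
      (δ m = m ∨ δ (Ly.D (pt 0) (pt 1) * m * Ly.D (pt 0) (pt 1)) = m) := by
  obtain ⟨g, hg⟩ := Ly.exists_map ![pt 0, pt 1, pt 2, pt 3, pt 4] ![pt 0, pt 2, pt 1, pt 3, pt 4]
    (by decide +kernel) (by decide +kernel)
  have g0 : Ly.act g (pt 0) = pt 0 := hg 0
  have g1 : Ly.act g (pt 1) = pt 2 := hg 1
  have g2 : Ly.act g (pt 2) = pt 1 := hg 2
  have g3 : Ly.act g (pt 3) = pt 3 := hg 3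
  have gi : ∀ p q, Ly.act g p = q → Ly.act g⁻¹ q = p := fun p q e => by
    rw [← e, ← Ly.act_mul, inv_mul_cancel, Ly.act_one]
  have hA : ∀ a ∈ Ly.A, δ a = a := fun a ha => hfix a (A_le_CE Ly ha)
  -- `g⁻¹ δ g` lies in `A`
  obtain ⟨a, hga⟩ : ∃ a : G, δ (g : G) = (g : G) * a := ⟨(g : G)⁻¹ * δ (g : G), (mul_inv_cancel_left _ _).symm⟩
  have hcA : ∀ b ∈ Ly.A, a * b = b * a := by
    intro b hb
    have h1 : δ ((g : G) * b * (g : G)⁻¹) = (g : G) * b * (g : G)⁻¹ :=
      hA _ ((Subgroup.mem_normalizer_iff.1 g.2 b).1 hb)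
    rw [map_mul, map_mul, map_inv, hA b hb, hga] at h1
    have h2 : a * b * a⁻¹ = b := by
      calc a * b * a⁻¹ = (g : G)⁻¹ * ((g : G) * a * b * ((g : G) * a)⁻¹) * (g : G) := by group
        _ = b := by rw [h1]; group
    exact mul_inv_eq_iff_eq_mul.1 h2
  have haN : a ∈ Subgroup.normalizer (Ly.A : Set G) := Subgroup.mem_normalizer_iff.2 fun b => by
    constructor
    · intro hb; rw [hcA b hb, mul_inv_cancel_right]; exact hb
    · intro hb
      have h1 : a * b * a⁻¹ = b := by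
        have h2 := hcA _ hb
        calc a * b * a⁻¹ = a⁻¹ * (a * (a * b * a⁻¹)) := by group
          _ = a⁻¹ * (a * b * a⁻¹ * a) := by rw [h2]
          _ = b := by group
      rwa [h1] at hb
  have haA : a ∈ Ly.A := Ly.mem_A_of_act (g := ⟨a, haN⟩) (act_eq_of_comm (g := ⟨a, haN⟩) hcA)
  -- it commutes with the stabiliser of the three points
  have hk : ∀ k : ↥(Subgroup.normalizer (Ly.A : Set G)), Ly.act k (pt 0) = pt 0 → Ly.act k (pt 1) = pt 1 →
      Ly.act k (pt 2) = pt 2 → a * (k : G) = (k : G) * a := by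
    intro k k0 k1 k2
    have hmem : ((g * k * g⁻¹ : ↥(Subgroup.normalizer (Ly.A : Set G))) : G) ∈ CE Ly := mem_CE_of_fix Ly
      (by rw [Ly.act_mul, Ly.act_mul, gi _ _ g0, k0, g0])
      (by rw [Ly.act_mul, Ly.act_mul, gi _ _ g2, k2, g2])
      (by rw [Ly.act_mul, Ly.act_mul, gi _ _ g1, k1, g1])
    rw [Subgroup.coe_mul, Subgroup.coe_mul, Subgroup.coe_inv] at hmem
    have h1 := hfix _ hmem
    rw [map_mul, map_mul, map_inv, hfix _ (mem_CE_of_fix Ly k0 k1 k2), hga] at h1
    refine mul_inv_eq_iff_eq_mul.1 ?_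
    calc a * (k : G) * a⁻¹ = (g : G)⁻¹ * ((g : G) * a * (k : G) * ((g : G) * a)⁻¹) * (g : G) := by group
      _ = k := by rw [h1]; group
  have hE := mem_fourGroup_of_comm haA hk
  -- the element
  set m : ↥(Subgroup.normalizer (Ly.A : Set G)) := g * w * g⁻¹ with hm
  have m0 : Ly.act m (pt 0) = pt 0 := by rw [hm, Ly.act_mul, Ly.act_mul, gi _ _ g0, hw0, g0]
  have m1 : Ly.act m (pt 1) = pt 3 := by rw [hm, Ly.act_mul, Ly.act_mul, gi _ _ g2, hw2, g3]
  have m2 : Ly.act m (pt 2) = pt 2 := by rw [hm, Ly.act_mul, Ly.act_mul, gi _ _ g1, hw1, g1]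
  refine ⟨(m : G), by rw [Ly.conj_D, m0, m1], ?_⟩
  have hmG : (m : G) = (g : G) * (w : G) * (g : G)⁻¹ := rfl
  have hdm : δ (m : G) = (g : G) * (a * (w : G) * a⁻¹) * (g : G)⁻¹ := by
    rw [hmG, map_mul, map_mul, map_inv, hga, hw]; group
  have hconj : ∀ b : G, (g : G) * (b * (w : G) * b⁻¹) * (g : G)⁻¹ =
      ((g : G) * b * (g : G)⁻¹) * (m : G) * ((g : G) * b * (g : G)⁻¹)⁻¹ := fun b => by
    rw [hmG]; group
  rcases (mem_fourGroup Ly).1 hE with e | e | e | e
  · left
    rw [hdm, e, one_mul, inv_one, mul_one, hmG]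
  · left
    have hwc : (w : G) * Ly.D (pt 0) (pt 1) * (w : G)⁻¹ = Ly.D (pt 0) (pt 1) := by rw [Ly.conj_D, hw0, hw1]
    rw [hdm, e, ← mul_inv_eq_iff_eq_mul.1 hwc, mul_inv_cancel_right, hmG]
  · right
    rw [hconj, e, Ly.conj_D, g0, g2, Ly.D_inv] at hdm
    rw [map_mul, map_mul, hA _ (Ly.D_mem _ _), hdm]
    calc Ly.D (pt 0) (pt 1) * (Ly.D (pt 0) (pt 1) * (m : G) * Ly.D (pt 0) (pt 1)) * Ly.D (pt 0) (pt 1)
        = (Ly.D (pt 0) (pt 1) * Ly.D (pt 0) (pt 1)) * (m : G) * (Ly.D (pt 0) (pt 1) * Ly.D (pt 0) (pt 1)) := by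
          group
      _ = (m : G) := by rw [Ly.D_mul_self, one_mul, mul_one]
  · right
    rw [hconj, e, Ly.conj_D, g1, g2, Ly.D_inv, Ly.D_symm (pt 2) (pt 1)] at hdm
    rw [map_mul, map_mul, hA _ (Ly.D_mem _ _), hdm]
    calc Ly.D (pt 0) (pt 1) * (Ly.D (pt 1) (pt 2) * (m : G) * Ly.D (pt 1) (pt 2)) * Ly.D (pt 0) (pt 1)
        = (Ly.D (pt 0) (pt 1) * Ly.D (pt 1) (pt 2)) * (m : G) * (Ly.D (pt 1) (pt 2) * Ly.D (pt 0) (pt 1)) := by
          group
      _ = Ly.D (pt 0) (pt 2) * (m : G) * Ly.D (pt 0) (pt 2) := by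
          rw [Ly.comm _ (Ly.D_mem (pt 1) (pt 2)) _ (Ly.D_mem (pt 0) (pt 1)), Ly.D_trans]
      _ = (m : G) := by
          have h1 : (m : G) * Ly.D (pt 0) (pt 2) * (m : G)⁻¹ = Ly.D (pt 0) (pt 2) := by rw [Ly.conj_D, m0, m2]
          rw [← mul_inv_eq_iff_eq_mul.1 h1, mul_assoc, Ly.D_mul_self, mul_one]

end CfsgLib.LargeFischer.TypeTwo.Extension
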