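import Cfsg.Agent.Lib.LargeFischer.TypeTwo.Transport

/-!
A group with a subgroup of index two of large Fischer type at `z`: an element outside the subgroup fixes `z` and a
given involution of `Q` that is not conjugate to `z`.
-/

set_option autoImplicit false
set_option linter.unusedSectionVars false
set_option linter.style.haveILetI false

namespace CfsgLib.LargeFischer.TypeTwo.Extension

variable {X : Type*} [Group X] [Finite X] {G₀ : Subgroup X} {z : ↥G₀}
  {Q : Subgroup ↥(Subgroup.centralizer ({z} : Set ↥G₀))} [Q.Normal]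

/-- `Q` as a subgroup of the big group. -/
abbrev QX (Q : Subgroup ↥(Subgroup.centralizer ({z} : Set ↥G₀))) : Subgroup X :=
  (Q.map (Subgroup.subtype _)).map G₀.subtype

variable (hF : Cfsg.IsOfLargeFischerTypeAt z Q)
  (hFX : (Cfsg.generalizedFittingSubgroup ↥(Subgroup.centralizer ({(z : X)} : Set X))).map
    (Subgroup.subtype _) = ((Q.map (Subgroup.subtype _)).map G₀.subtype))

omit [Q.Normal] in
include hFX in
theorem QX_conj {x : X} (hx : x * (z : X) = (z : X) * x) {q : X} (hq : q ∈ QX Q) :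
    x * q * x⁻¹ ∈ QX Q := by
  rw [QX, ← hFX] at hq ⊢
  obtain ⟨f, hf, rfl⟩ := hq
  haveI : (Cfsg.generalizedFittingSubgroup ↥(Subgroup.centralizer ({(z : X)} : Set X))).Normal := inferInstance
  exact ⟨_, Subgroup.Normal.conj_mem inferInstance f hf ⟨x, Subgroup.mem_centralizer_singleton_iff.2 hx⟩, rfl⟩

include hF hFX in
theorem mem_of_centralizes {x : X} (hx : x * (z : X) = (z : X) * x)
    (hc : ∀ q ∈ QX Q, x * q = q * x) : x ∈ G₀ := by
  have h : (⟨x, Subgroup.mem_centralizer_singleton_iff.2 hx⟩ : ↥(Subgroup.centralizer ({(z : X)} : Set X))) ∈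
      Cfsg.generalizedFittingSubgroup ↥(Subgroup.centralizer ({(z : X)} : Set X)) :=
    CfsgLib.Cores.centralizer_generalizedFittingSubgroup_le (Subgroup.mem_centralizer_iff.2 fun f hf =>
      Subtype.ext (hc (f : X) (by rw [QX, ← hFX]; exact ⟨f, hf, rfl⟩)).symm)
  have h' : x ∈ QX Q := by rw [QX, ← hFX]; exact ⟨_, h, rfl⟩
  obtain ⟨y, -, rfl⟩ := h'
  exact y.2

include hF in
/-- A Sylow subgroup with `z` central has its centre inside `⟨z⟩`. -/
theorem eq_of_central {P : Sylow 2 ↥G₀} (hzP : z ∈ (P : Subgroup ↥G₀))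
    (hPz : ∀ y ∈ (P : Subgroup ↥G₀), Commute y z) {c : ↥G₀}
    (hcP : ∀ y ∈ (P : Subgroup ↥G₀), Commute c y) : c = 1 ∨ c = z := by
  haveI := Fact.mk Nat.prime_two
  have hs := hF.1
  have hPC : (P : Subgroup ↥G₀) ≤ Subgroup.centralizer ({z} : Set ↥G₀) := fun y hy =>
    Subgroup.mem_centralizer_singleton_iff.2 (hPz y hy)
  have hQp : IsPGroup 2 ↥Q := IsPGroup.of_card (n := 2 * 6 + 1) hs.2.2.2.1
  have hPp : IsPGroup 2 ↥((P : Subgroup ↥G₀).subgroupOf (Subgroup.centralizer ({z} : Set ↥G₀))) :=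
    P.isPGroup'.of_equiv (Subgroup.subgroupOfEquivOfLe hPC).symm
  have hp := (hQp.to_sup_of_normal_left hPp).map (Subgroup.subtype _)
  have heq := P.is_maximal' hp (fun y hy => ⟨⟨y, hPC hy⟩, Subgroup.mem_sup_right hy, rfl⟩)
  have hQP : ∀ q ∈ Q, (q : ↥G₀) ∈ (P : Subgroup ↥G₀) := fun q hq =>
    heq.le ⟨q, Subgroup.mem_sup_left hq, rfl⟩
  have hcC : c ∈ Subgroup.centralizer ({z} : Set ↥G₀) :=
    Subgroup.mem_centralizer_singleton_iff.2 (hcP z hzP)
  have hcc : ∀ y ∈ Q, (⟨c, hcC⟩ : ↥(Subgroup.centralizer ({z} : Set ↥G₀))) * y = y * ⟨c, hcC⟩ :=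
    fun y hy => Subtype.ext (hcP _ (hQP y hy))
  rcases center_cases hs (mem_Q_of_centralizes hs hcc) hcc with h | h
  · exact Or.inl (congrArg Subtype.val h)
  · exact Or.inr (congrArg Subtype.val h)

theorem exists_outer_fix (hidx : G₀.index = 2) (hF : Cfsg.IsOfLargeFischerTypeAt z Q)
    (hcentral : ∃ P : Sylow 2 ↥G₀, z ∈ (P : Subgroup ↥G₀) ∧ ∀ x ∈ (P : Subgroup ↥G₀), Commute x z)
    (hFX : (Cfsg.generalizedFittingSubgroup ↥(Subgroup.centralizer ({(z : X)} : Set X))).map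
      (Subgroup.subtype _) = ((Q.map (Subgroup.subtype _)).map G₀.subtype))
    (t : ↥G₀) (htQ : ∃ h : t ∈ Subgroup.centralizer ({z} : Set ↥G₀),
      (⟨t, h⟩ : ↥(Subgroup.centralizer ({z} : Set ↥G₀))) ∈ Q)
    (ht2 : orderOf t = 2) (htn : ¬ IsConj z t) :
    ∃ x : X, x ∉ G₀ ∧ x * (z : X) = (z : X) * x ∧ x * (t : X) = (t : X) * x := by
  classical
  haveI := Fact.mk Nat.prime_two
  haveI := Subgroup.normal_of_index_eq_two hidx
  obtain ⟨P, hzP, hPz⟩ := hcentral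
  obtain ⟨R, hR⟩ := (P.isPGroup'.map G₀.subtype).exists_le_sylow
  -- an element of `R` outside `G₀`
  have hnot : ¬ (R : Subgroup X) ≤ G₀ := fun h => by
    have h1 : 2 ∣ (R : Subgroup X).index := by
      have h2 := Subgroup.index_dvd_of_le h
      rwa [hidx] at h2
    exact R.not_dvd_index h1
  obtain ⟨r, hrR, hrG⟩ := SetLike.not_le_iff_exists.1 hnot
  have hRP : (R : Subgroup X).subgroupOf G₀ = (P : Subgroup ↥G₀) :=
    P.is_maximal' (R.isPGroup'.comap_of_injective G₀.subtype Subtype.val_injective)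
      fun y hy => hR ⟨y, hy, rfl⟩
  have hconj : ∀ {a : X} (ha : a ∈ G₀), r * a * r⁻¹ ∈ G₀ := fun ha =>
    Subgroup.Normal.conj_mem inferInstance _ ha r
  -- it fixes `z`
  set c : ↥G₀ := ⟨r * (z : X) * r⁻¹, hconj z.2⟩ with hc
  have hcz : r * (z : X) = (z : X) * r := by
    have hcP : ∀ y ∈ (P : Subgroup ↥G₀), Commute c y := by
      intro y hy
      have hy' : (⟨r⁻¹ * (y : X) * r, by
          have := Subgroup.Normal.conj_mem (inferInstance : G₀.Normal) _ y.2 r⁻¹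
          rwa [inv_inv] at this⟩ : ↥G₀) ∈ (P : Subgroup ↥G₀) := by
        rw [← hRP, Subgroup.mem_subgroupOf]
        exact mul_mem (mul_mem (inv_mem hrR) (hR ⟨y, hy, rfl⟩)) hrR
      have h : r⁻¹ * (y : X) * r * (z : X) = (z : X) * (r⁻¹ * (y : X) * r) :=
        congrArg Subtype.val (hPz _ hy').eq
      refine Subtype.ext ?_
      show r * (z : X) * r⁻¹ * (y : X) = (y : X) * (r * (z : X) * r⁻¹)
      calc r * (z : X) * r⁻¹ * (y : X) = r * ((z : X) * (r⁻¹ * (y : X) * r)) * r⁻¹ := by group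
        _ = r * (r⁻¹ * (y : X) * r * (z : X)) * r⁻¹ := by rw [h]
        _ = (y : X) * (r * (z : X) * r⁻¹) := by group
    rcases eq_of_central hF hzP hPz hcP with h | h
    · exfalso
      have h1 : r * (z : X) * r⁻¹ = 1 := congrArg Subtype.val h
      have h2 : z = 1 := Subtype.ext (conj_eq_one_iff.1 h1)
      have h3 := hF.1.1
      rw [h2, orderOf_one] at h3
      omega
    · exact mul_inv_eq_iff_eq_mul.1 (congrArg Subtype.val h)
  -- the image of `t`
  obtain ⟨htC, htQ'⟩ := htQ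
  have htX : (t : X) ∈ QX Q := ⟨t, ⟨⟨t, htC⟩, htQ', rfl⟩, rfl⟩
  obtain ⟨s, ⟨s', hs'Q, hs'⟩, hs⟩ := QX_conj hFX hcz htX
  replace hs' : (s' : ↥G₀) = s := hs'
  replace hs : (s : X) = r * (t : X) * r⁻¹ := hs
  have hs2 : orderOf s = 2 := by
    rw [← Subgroup.orderOf_coe, hs, show r * (t : X) * r⁻¹ = MulAut.conj r (t : X) from rfl,
      MulEquiv.orderOf_eq, Subgroup.orderOf_coe, ht2]
  have hsn : ¬ IsConj z s := fun hcs => by
    obtain ⟨g, hg⟩ := isConj_iff.1 hcs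
    refine htn (isConj_iff.2 ⟨⟨r⁻¹ * (g : X) * r, by
      have := Subgroup.Normal.conj_mem (inferInstance : G₀.Normal) _ g.2 r⁻¹
      rwa [inv_inv] at this⟩, Subtype.ext ?_⟩)
    have hg' : (g : X) * (z : X) * (g : X)⁻¹ = r * (t : X) * r⁻¹ := (congrArg Subtype.val hg).trans hs
    show r⁻¹ * (g : X) * r * (z : X) * (r⁻¹ * (g : X) * r)⁻¹ = (t : X)
    calc r⁻¹ * (g : X) * r * (z : X) * (r⁻¹ * (g : X) * r)⁻¹
        = r⁻¹ * ((g : X) * (r * (z : X) * r⁻¹) * (g : X)⁻¹) * r := by group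
      _ = r⁻¹ * ((g : X) * (z : X) * (g : X)⁻¹) * r := by rw [hcz, mul_inv_cancel_right]
      _ = (t : X) := by rw [hg']; group
  -- move it back inside the centralizer of `z`
  obtain ⟨C⟩ := exists_coords hF
  obtain ⟨k, hk⟩ := C.exists_classData hF.1
  obtain ⟨v, hv, hv2⟩ := inTwo_of_not_isConj hF.1 C hk (t := s') hs'Q
    (by rw [← Subgroup.orderOf_coe, hs']; exact hs2) (by rw [hs']; exact hsn)
  obtain ⟨w, hw, hw2⟩ := inTwo_of_not_isConj hF.1 C hk (t := ⟨t, htC⟩) htQ'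
    (by rw [← Subgroup.orderOf_coe]; exact ht2) htn
  obtain ⟨γ, hγ⟩ := hk.two_trans v w hv2 hw2
  obtain ⟨a, ha⟩ := Coords.exists_conj_eq hF.1 hv hw hv2.singular.1 hγ
  have haz : ((a : ↥G₀) : X) * (z : X) = (z : X) * ((a : ↥G₀) : X) :=
    congrArg Subtype.val (Subgroup.mem_centralizer_singleton_iff.1 a.2)
  have hat : ((a : ↥G₀) : X) * (r * (t : X) * r⁻¹) * ((a : ↥G₀) : X)⁻¹ = (t : X) := by
    have h := congrArg (fun y => (((y : ↥(Subgroup.centralizer ({z} : Set ↥G₀))) : ↥G₀) : X)) ha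
    simp only [Subgroup.coe_mul, InvMemClass.coe_inv, hs', hs] at h
    exact h
  refine ⟨((a : ↥G₀) : X) * r, fun h => hrG ?_, ?_, ?_⟩
  · have := G₀.mul_mem (G₀.inv_mem (a : ↥G₀).2) h
    rwa [inv_mul_cancel_left] at this
  · rw [mul_assoc, hcz, ← mul_assoc, haz, mul_assoc]
  · calc ((a : ↥G₀) : X) * r * (t : X)
        = ((a : ↥G₀) : X) * (r * (t : X) * r⁻¹) * ((a : ↥G₀) : X)⁻¹ * (((a : ↥G₀) : X) * r) := by group
      _ = (t : X) * (((a : ↥G₀) : X) * r) := by rw [hat]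

end CfsgLib.LargeFischer.TypeTwo.Extension
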