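import Cfsg.Agent.Lib.LargeFischer.TypeTwo.Extension.Core
import Cfsg.Agent.Lib.LargeFischer.TypeTwo.Extension.Centraliser
import Cfsg.Agent.Lib.LargeFischer.TypeTwo.Extension.NonWeak
import Cfsg.Agent.Lib.LargeFischer.TypeTwo.Extension.OuterElement
import Cfsg.Agent.S5402

/-!
Large Fischer type inside a group `X` as a subgroup of index two: an outer involution whose centraliser in the
subgroup is of type M(23).
-/

set_option autoImplicit false
set_option linter.unusedSectionVars false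
set_option linter.style.haveILetI false

namespace CfsgLib.LargeFischer.TypeTwo.Extension

open Cfsg CfsgLib.FischerLarge CfsgLib.FischerLarge.U62 CfsgLib.Golay

variable {X : Type*} [Group X] [Finite X] {G₀ : Subgroup X}

/-- From an outer involution fixing exactly the kernel, and an element moving `t`, to type M(23). -/
theorem finish (d : X) {t : ↥G₀} (ht2 : t * t = 1) (ht1 : t ≠ 1)
    {Y0 : Subgroup (Subgroup.centralizer ({t} : Set ↥G₀))} (hqs : Cfsg.IsQuasisimple ↥Y0)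
    (hd : ∀ y : Subgroup.centralizer ({t} : Set ↥G₀), d * ((y : ↥G₀) : X) = ((y : ↥G₀) : X) * d ↔ y ∈ Y0)
    (tK : ↥Y0) [(Subgroup.zpowers tK).Normal] (htK : ((tK : Subgroup.centralizer ({t} : Set ↥G₀)) : ↥G₀) = t)
    (hin : Inv22 (↥Y0 ⧸ Subgroup.zpowers tK))
    {m : ↥G₀} (hm : (m : X) * d = d * (m : X)) (hmc : m * t * m⁻¹ * t = t * (m * t * m⁻¹))
    (hmne : m * t * m⁻¹ ≠ t) :
    ∃ t' : ↥(G₀ ⊓ Subgroup.centralizer ({d} : Set X)), orderOf t' = 2 ∧
      Cfsg.IsQuasisimple ↥(Subgroup.centralizer ({t'} : Set ↥(G₀ ⊓ Subgroup.centralizer ({d} : Set X)))) ∧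
      (∃ (_ : ((Subgroup.zpowers t').subgroupOf (Subgroup.centralizer ({t'} : Set ↥(G₀ ⊓ Subgroup.centralizer ({d} : Set X))))).Normal),
        (∃ E : Set (↥(Subgroup.centralizer ({t'} : Set ↥(G₀ ⊓ Subgroup.centralizer ({d} : Set X)))) ⧸
            (Subgroup.zpowers t').subgroupOf (Subgroup.centralizer ({t'} : Set ↥(G₀ ⊓ Subgroup.centralizer ({d} : Set X))))),
          Cfsg.IsThreeTranspositionClass E ∧ Cfsg.IsOfTypeM22 _ E) ∧
        Inv22 (↥(Subgroup.centralizer ({t'} : Set ↥(G₀ ⊓ Subgroup.centralizer ({d} : Set X)))) ⧸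
          (Subgroup.zpowers t').subgroupOf (Subgroup.centralizer ({t'} : Set ↥(G₀ ⊓ Subgroup.centralizer ({d} : Set X)))))) ∧
      (∃ g : ↥(G₀ ⊓ Subgroup.centralizer ({d} : Set X)),
        g * t' * g⁻¹ ∈ Subgroup.centralizer ({t'} : Set ↥(G₀ ⊓ Subgroup.centralizer ({d} : Set X))) ∧
          g * t' * g⁻¹ ≠ t') ∧
      Cfsg.IsThreeTranspositionClass (conjugatesOf t') ∧
      Cfsg.IsOfTypeM23 ↥(G₀ ⊓ Subgroup.centralizer ({d} : Set X)) (conjugatesOf t') := by
  set W := G₀ ⊓ Subgroup.centralizer ({d} : Set X) with hW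
  have hmemW : ∀ g : ↥G₀, d * (g : X) = (g : X) * d → (g : X) ∈ W := fun g hg =>
    ⟨g.2, Subgroup.mem_centralizer_singleton_iff.2 hg.symm⟩
  set tC : Subgroup.centralizer ({t} : Set ↥G₀) := (tK : Subgroup.centralizer ({t} : Set ↥G₀))
  have htW : (t : X) ∈ W := hmemW t (by
    have := (hd tC).2 tK.2
    rw [show ((tC : ↥G₀) : X) = (t : X) from congrArg Subtype.val htK] at this
    exact this)
  set t' : ↥W := ⟨(t : X), htW⟩
  have ht'2 : t' * t' = 1 := Subtype.ext (congrArg Subtype.val ht2 :)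
  have ht'1 : t' ≠ 1 := fun e => ht1 (Subtype.ext (congrArg (fun w : W => (w : X)) e :))
  have hord : orderOf t' = 2 := by
    haveI : Fact (Nat.Prime 2) := ⟨Nat.prime_two⟩
    exact orderOf_eq_prime (by rw [pow_two]; exact ht'2) ht'1
  let φ : ↥(Subgroup.centralizer ({t'} : Set ↥W)) ≃* ↥Y0 :=
    { toFun := fun c => ⟨⟨⟨((c : ↥W) : X), (c : ↥W).2.1⟩, Subgroup.mem_centralizer_singleton_iff.2 (Subtype.ext
          (congrArg Subtype.val (Subgroup.mem_centralizer_singleton_iff.1 c.2) :))⟩,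
        (hd _).1 (Subgroup.mem_centralizer_singleton_iff.1 (c : ↥W).2.2).symm⟩
      invFun := fun k => ⟨⟨(((k : Subgroup.centralizer ({t} : Set ↥G₀)) : ↥G₀) : X),
          hmemW _ ((hd _).2 k.2)⟩, Subgroup.mem_centralizer_singleton_iff.2 (Subtype.ext
          (congrArg Subtype.val (Subgroup.mem_centralizer_singleton_iff.1 (k : Subgroup.centralizer ({t} : Set ↥G₀)).2) :))⟩
      left_inv := fun c => rfl
      right_inv := fun k => rfl
      map_mul' := fun a b => rfl }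
  obtain ⟨hq, hn, hE, hI⟩ := of_equiv t' φ tK
    (fun h => Subtype.ext (Subtype.ext (Subtype.ext (congrArg Subtype.val htK).symm))) hqs hin
  have hnwc : ∃ g : ↥W, g * t' * g⁻¹ ∈ Subgroup.centralizer ({t'} : Set ↥W) ∧ g * t' * g⁻¹ ≠ t' := by
    refine ⟨⟨(m : X), hmemW m hm.symm⟩, Subgroup.mem_centralizer_singleton_iff.2 (Subtype.ext ?_), fun e => hmne ?_⟩
    · exact (congrArg Subtype.val hmc :)
    · exact Subtype.ext (congrArg (fun w : W => (w : X)) e :)
  haveI := hn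
  obtain ⟨h3, h23⟩ := Cfsg.Agent.S5402.result t' hord hq hE hI hnwc
  exact ⟨t', hord, hq, ⟨hn, hE, hI⟩, hnwc, h3, h23⟩

end CfsgLib.LargeFischer.TypeTwo.Extension
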